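import Cfsg.Agent.H90.SL2Emb
import Cfsg.Agent.H90.Root3

/-! Root subgroups `{1 + c e}` given by a set of square zero elements of an algebra. -/

set_option autoImplicit false

namespace Cfsg.Agent.H90
open Cfsg

local notation "SL2" => Matrix.SpecialLinearGroup (Fin 2)

variable (k : Type*) [Field k] {R : Type*} [Ring R] [Algebra k R] {G : Type*} [Group G] (ρ : G →* R)

/-- the root subgroup of `e` -/
def RT (e : R) : Subgroup G := Subgroup.closure {g | ∃ c : k, ρ g = 1 + c • e}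

/-- a system of root elements -/
structure RE (N : Set R) : Prop where
  inj : Function.Injective ρ
  ne : ∀ e ∈ N, e ≠ 0
  sq : ∀ e ∈ N, e * e = 0
  full : ∀ e ∈ N, ∀ c : k, ∃ g, ρ g = 1 + c • e
  conj : ∀ e ∈ N, ∀ g, ρ g * e * ρ g⁻¹ ∈ N
  tri : ∀ e ∈ N, ∀ f ∈ N, e * f = f * e ∨ (∃ c : k, MU e (c • f)) ∨ (e * f * e = 0 ∧ f * e * f = 0 ∧ e * f - f * e ∈ N)

variable {k ρ} {N : Set R} {e f : R} {g : G}

theorem rho_inv (he : e * e = 0) {c : k} (h : ρ g = 1 + c • e) : ρ g⁻¹ = 1 + (-c) • e := by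
  have : ρ g * (1 + (-c) • e) = 1 := by simp [h, mul_add, add_mul, he]
  rw [← mul_one (ρ g⁻¹)]
  conv_lhs => rw [← this, ← mul_assoc, ← map_mul, inv_mul_cancel, map_one, one_mul]

theorem mem_RT (he : e * e = 0) : g ∈ RT k ρ e ↔ ∃ c : k, ρ g = 1 + c • e := by
  refine ⟨fun h => ?_, fun h => Subgroup.subset_closure h⟩
  induction h using Subgroup.closure_induction with
  | mem x hx => exact hx
  | one => exact ⟨0, by simp⟩
  | mul x y _ _ hx hy =>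
    obtain ⟨c, hc⟩ := hx
    obtain ⟨d, hd⟩ := hy
    exact ⟨c + d, by simp [hc, hd, mul_add, add_mul, he, add_smul, add_assoc]⟩
  | inv x _ hx => obtain ⟨c, hc⟩ := hx; exact ⟨_, rho_inv he hc⟩

theorem RT_smul {c : k} (hc : c ≠ 0) : RT k ρ (c • e) = RT k ρ e := by
  unfold RT; congr 1; ext g
  exact ⟨fun ⟨d, h⟩ => ⟨d * c, by rw [h, mul_smul]⟩, fun ⟨d, h⟩ => ⟨d / c, by rw [h, smul_smul, div_mul_cancel₀ _ hc]⟩⟩

theorem RT_conj (he : e * e = 0) (g : G) : conjBy (RT k ρ e) g = RT k ρ (ρ g * e * ρ g⁻¹) := by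
  have h1 : ρ g⁻¹ * ρ g = 1 := by rw [← map_mul]; simp
  have h2 : ρ g * ρ g⁻¹ = 1 := by rw [← map_mul]; simp
  ext x
  rw [conjBy_eq_rc, mem_rc, mem_RT he, mem_RT (by simp [mul_assoc, ← mul_assoc (ρ g⁻¹), h1, ← mul_assoc e, he]), inv_inv]
  refine exists_congr fun c => ⟨fun h => ?_, fun h => ?_⟩
  · rw [show x = g * (g⁻¹ * x * g) * g⁻¹ by group, map_mul, map_mul, h]; simp [mul_add, add_mul, h2]
  · rw [map_mul, map_mul, h]; simp [mul_add, add_mul, h1, mul_assoc, ← mul_assoc (ρ g⁻¹)]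

theorem RT_subgroupOf (he : e * e = 0) (U : Subgroup G) : (RT k ρ e).subgroupOf U = RT k (ρ.comp U.subtype) e := by
  ext g; rw [Subgroup.mem_subgroupOf, mem_RT he, mem_RT he]; rfl

theorem biSup_subgroupOf (S : Set (Subgroup G)) :
    ⨆ A ∈ (fun A : Subgroup G => A.subgroupOf (⨆ B ∈ S, B)) '' S, A = ⊤ := by
  apply Subgroup.map_injective (Subgroup.subtype_injective _)
  rw [← MonoidHom.range_eq_map, Subgroup.range_subtype, iSup_image]
  simp only [Subgroup.map_iSup]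
  exact biSup_congr fun A hA => Subgroup.map_subgroupOf_eq_of_le (le_iSup₂_of_le A hA le_rfl)

namespace RE
variable (h : RE k ρ N)
include h

theorem eq_one (he : e ∈ N) {c : k} (hg : ρ g = 1 + c • e) : g = 1 ↔ c = 0 := by
  rw [← h.inj.eq_iff, hg, map_one, add_eq_left, smul_eq_zero_iff_left (h.ne e he)]

theorem cm (he : e ∈ N) (hf : f ∈ N) (c : e * f = f * e) : Cm (RT k ρ e) (RT k ρ f) := fun a ha b hb => by
  obtain ⟨s, hs⟩ := (mem_RT (h.sq e he)).1 ha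
  obtain ⟨t, ht⟩ := (mem_RT (h.sq f hf)).1 hb
  apply h.inj
  simp only [map_mul, hs, ht, mul_add, add_mul, one_mul, mul_one, smul_mul_smul_comm, c, mul_comm s t]
  abel

theorem exists_hom (he : e ∈ N) (hf : f ∈ N) {c : k} (m : MU e (c • f)) :
    ∃ ψ : SL2 k →* G, (∀ t, ρ (ψ (xu t)) = 1 + t • e) ∧ ∀ t, ρ (ψ (xl t)) = 1 + t • c • f := by
  obtain ⟨φ, h1, h2⟩ := m.exists_hom (k := k)
  have hi : Function.Injective ρ.toHomUnits := fun a b e => h.inj (congrArg Units.val e)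
  have hr : ∀ x, φ x ∈ ρ.toHomUnits.range := fun x => by
    have := sl2_eq_top (H := ρ.toHomUnits.range.comap φ) (fun t => let ⟨g, hg⟩ := h.full e he t; ⟨g, Units.ext (hg.trans (h1 t).symm)⟩)
      fun t => let ⟨g, hg⟩ := h.full f hf (t * c); ⟨g, Units.ext (hg.trans (by rw [h2, mul_smul]))⟩
    exact this.ge trivial
  let ψ : SL2 k →* G := (MonoidHom.ofInjective hi).symm.toMonoidHom.comp (φ.codRestrict _ hr)
  have hψ : ∀ x, ρ (ψ x) = φ x := fun x =>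
    congrArg Units.val (MonoidHom.apply_ofInjective_symm hi ⟨φ x, hr x⟩)
  exact ⟨ψ, fun t => by rw [hψ, h1], fun t => by rw [hψ, h2]⟩

theorem mu_ne (he : e ∈ N) {c : k} (m : MU e (c • f)) : c ≠ 0 := by
  rintro rfl; exact h.ne e he (by simpa using m.efe.symm)

theorem psl2 (he : e ∈ N) (hf : f ∈ N) {c : k} (m : MU e (c • f)) : IsPSL2PairOver k (RT k ρ e) (RT k ρ f) := by
  obtain ⟨ψ, h1, h2⟩ := h.exists_hom he hf m
  refine psl2Pair_of_hom ψ (fun g => ?_) (fun g => ?_) fun hcm => ?_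
  · rw [mem_RT (h.sq e he)]; exact exists_congr fun t => by rw [← h.inj.eq_iff, h1]
  · rw [← RT_smul (h.mu_ne he m), mem_RT m.ff]; exact exists_congr fun t => by rw [← h.inj.eq_iff, h2]
  · have := congrArg ρ (hcm (ψ (xu 1)) ((mem_RT (h.sq e he)).2 ⟨1, by rw [h1]⟩) (ψ (xl 1))
      ((mem_RT (h.sq f hf)).2 ⟨c, by rw [h2, one_smul]⟩))
    simp only [map_mul, h1, h2, one_smul, mul_add, add_mul, one_mul, mul_one] at this
    have e1 : e * c • f = c • f * e := by linear_combination (norm := abel) this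
    exact h.ne e he (by rw [← m.efe, e1, mul_assoc, m.ee, mul_zero])

theorem eq_smul (he : e ∈ N) (hf : f ∈ N) (e1 : RT k ρ e = RT k ρ f) : ∃ c : k, e = c • f := by
  obtain ⟨a, ha⟩ := h.full e he 1
  obtain ⟨c, hc⟩ := (mem_RT (h.sq f hf)).1 (e1 ▸ (mem_RT (h.sq e he)).2 ⟨_, ha⟩)
  exact ⟨c, by simpa [ha] using hc⟩

theorem comm_eq (he : e ∈ N) (hf : f ∈ N) (e1 : e * f * e = 0) (e2 : f * e * f = 0) {a b : G} {s t : k}
    (hs : ρ a = 1 + s • e) (ht : ρ b = 1 + t • f) : ρ (a⁻¹ * b⁻¹ * a * b) = 1 + (s * t : k) • (e * f - f * e) := by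
  have a1 := h.sq e he
  have a2 := h.sq f hf
  have b1 : ∀ w, e * (e * w) = 0 := fun w => by rw [← mul_assoc, a1, zero_mul]
  have b2 : ∀ w, f * (f * w) = 0 := fun w => by rw [← mul_assoc, a2, zero_mul]
  have b3 : ∀ w, e * (f * (e * w)) = 0 := fun w => by rw [← mul_assoc, ← mul_assoc, e1, zero_mul]
  rw [mul_assoc] at e1 e2
  simp only [map_mul, rho_inv a1 hs, rho_inv a2 ht, hs, ht, mul_add, add_mul, one_mul, mul_one, smul_mul_assoc,
    mul_smul_comm, mul_assoc, a1, a2, b1, b2, b3, e1, e2, smul_zero, mul_zero]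
  module

theorem sc (he : e ∈ N) (hf : f ∈ N) (e1 : e * f * e = 0) (e2 : f * e * f = 0) (hn : e * f - f * e ∈ N) :
    Sc (RT k ρ '' N) (RT k ρ e) (RT k ρ f) (RT k ρ (e * f - f * e)) := by
  have a1 := h.sq e he
  have a2 := h.sq f hf
  have key := fun {a b s t} => h.comm_eq he hf e1 e2 (a := a) (b := b) (s := s) (t := t)
  have cm' : ∀ a ∈ RT k ρ e, ∀ b ∈ RT k ρ f, a⁻¹ * b⁻¹ * a * b ∈ RT k ρ (e * f - f * e) := fun a ha b hb => by
    obtain ⟨s, hs⟩ := (mem_RT a1).1 ha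
    obtain ⟨t, ht⟩ := (mem_RT a2).1 hb
    exact (mem_RT (h.sq _ hn)).2 ⟨_, key hs ht⟩
  have sR : ∀ a ∈ RT k ρ e, a ≠ 1 → ∀ c ∈ RT k ρ (e * f - f * e), ∃ b ∈ RT k ρ f, c = a⁻¹ * b⁻¹ * a * b :=
    fun a ha ha1 c hc => by
      obtain ⟨s, hs⟩ := (mem_RT a1).1 ha
      obtain ⟨t, ht⟩ := (mem_RT (h.sq _ hn)).1 hc
      obtain ⟨b, hb⟩ := h.full f hf (t / s)
      exact ⟨b, (mem_RT a2).2 ⟨_, hb⟩, h.inj (by rw [key hs hb, ht, mul_div_cancel₀ _ (mt (h.eq_one he hs).2 ha1)])⟩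
  refine ⟨⟨_, hn, rfl⟩, le_antisymm (Subgroup.commutator_le.2 fun a ha b hb => ?_) fun c hc => ?_,
    h.cm hn he (by simp [mul_sub, sub_mul, e1, mul_assoc f, a1, ← mul_assoc e]),
    h.cm hn hf (by simp [mul_sub, sub_mul, e2, mul_assoc e, a2, ← mul_assoc f]), cm', sR, fun b hb hb1 c hc => ?_⟩
  · simpa [commutatorElement_def] using cm' _ (inv_mem ha) _ (inv_mem hb)
  · obtain ⟨a, ha⟩ := h.full e he 1
    obtain ⟨b, hb, rfl⟩ := sR a ((mem_RT a1).2 ⟨_, ha⟩) (mt (h.eq_one he ha).1 one_ne_zero) c hc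
    exact comm_mem_commutator ((mem_RT a1).2 ⟨_, ha⟩) hb
  · obtain ⟨s, hs⟩ := (mem_RT a2).1 hb
    obtain ⟨t, ht⟩ := (mem_RT (h.sq _ hn)).1 hc
    obtain ⟨a, ha⟩ := h.full e he (t / s)
    exact ⟨a, (mem_RT a1).2 ⟨_, ha⟩, h.inj (by rw [key ha hs, ht, div_mul_cancel₀ _ (mt (h.eq_one hf hs).2 hb1)])⟩

theorem fadj (he : e ∈ N) (hf : f ∈ N) {c : k} (m : MU e (c • f)) : FAdj (RT k ρ '' N) (RT k ρ e) (RT k ρ f) :=
  ⟨⟨_, he, rfl⟩, ⟨_, hf, rfl⟩, (IsPSL2PairOver.sp (h.psl2 he hf m)).1⟩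

theorem kroot (hG : ⨆ A ∈ RT k ρ '' N, A = ⊤) : IsKRootSubgroupSet k (RT k ρ '' N) := by
  have hS : IsRootSubgroupSet (RT k ρ '' N) := by
    refine ⟨?_, ?_, hG, ?_, ?_⟩
    · rintro _ ⟨e, he, rfl⟩; exact cm_self_iff.1 (h.cm he he rfl)
    · rintro _ ⟨e, he, rfl⟩ hb
      obtain ⟨a, ha⟩ := h.full e he 1
      exact one_ne_zero ((h.eq_one he ha).1 (Subgroup.mem_bot.1 (hb ▸ (mem_RT (h.sq e he)).2 ⟨_, ha⟩)))
    · rintro _ ⟨e, he, rfl⟩ g; exact ⟨_, h.conj e he g, (RT_conj (h.sq e he) g).symm⟩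
    · rintro _ ⟨e, he, rfl⟩ _ ⟨f, hf, rfl⟩
      rcases h.tri e he f hf with h1 | ⟨c, h1⟩ | h1
      · exact Or.inl (cm_iff.1 (h.cm he hf h1))
      · exact Or.inr (Or.inl (h.fadj he hf h1).2.2)
      · exact Or.inr (Or.inr (rcc_of_sc (h.sc he hf h1.1 h1.2.1 h1.2.2)))
  refine ⟨hS, ?_⟩
  rintro _ ⟨e, he, rfl⟩ _ ⟨f, hf, rfl⟩ hr
  rcases h.tri e he f hf with h1 | ⟨c, h1⟩ | h1
  · exact absurd (h.cm he hf h1) (r1_not_cm hr)
  · exact h.psl2 he hf h1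
  · exact absurd hr ((h.sc he hf h1.1 h1.2.1 h1.2.2).not_r1 hS ⟨_, hf, rfl⟩)

theorem degenerate (hS : IsRootSubgroupSet (RT k ρ '' N))
    (h2 : ∀ e ∈ N, ∀ f ∈ N, e * f = f * e ∨ ∃ c : k, MU e (c • f)) : IsDegenerateRootSet (RT k ρ '' N) := by
  rintro _ ⟨e, he, rfl⟩ _ ⟨f, hf, rfl⟩ hr
  rcases h2 e he f hf with h1 | ⟨c, h1⟩
  · exact (sc_of_rcc hr).not_cm hS (h.cm he hf h1)
  · exact (sc_of_rcc hr).not_r1 hS ⟨_, hf, rfl⟩ (h.fadj he hf h1).2.2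

theorem le_sup (he : e ∈ N) {c : k} (hg : ρ g = 1 + c • e) : g ∈ ⨆ A ∈ RT k ρ '' N, A :=
  Subgroup.mem_iSup_of_mem (RT k ρ e) (Subgroup.mem_iSup_of_mem ⟨e, he, rfl⟩ ((mem_RT (h.sq e he)).2 ⟨c, hg⟩))

theorem sub : RE k (ρ.comp (⨆ A ∈ RT k ρ '' N, A).subtype) N :=
  ⟨h.inj.comp Subtype.val_injective, h.ne, h.sq, fun e he c => let ⟨g, hg⟩ := h.full e he c; ⟨⟨g, h.le_sup he hg⟩, hg⟩,
    fun e he g => h.conj e he g, h.tri⟩

theorem sub_image (U : Subgroup G) : (fun A : Subgroup G => A.subgroupOf U) '' (RT k ρ '' N) =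
    RT k (ρ.comp U.subtype) '' N := by
  rw [Set.image_image]; exact Set.image_congr fun e he => RT_subgroupOf (h.sq e he) U

theorem sub_top : ⨆ A ∈ RT k (ρ.comp (⨆ A ∈ RT k ρ '' N, A).subtype) '' N, A = ⊤ := by
  rw [← h.sub_image]
  exact biSup_subgroupOf _

end RE

theorem class_of_conn {S : Set (Subgroup G)} (hS : IsRootSubgroupSet S) (hn : S.Nonempty)
    (hc : IsConnectedFamily (FAdj S) S) : IsRootSubgroupClass S :=
  ⟨hS, hn, fun A hA B hB => let ⟨g, hg⟩ := Conn.conj (hc A hA B hB); ⟨g⁻¹, hg⟩⟩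

/-! ### rank one operators -/

variable {F V : Type*} [Field F] [AddCommGroup V] [Module F V]

/-- `x ↦ φ x • v` -/
def ro (v : V) (φ : Module.Dual F V) : Module.End F V := φ.smulRight v

variable {v w : V} {φ ψ : Module.Dual F V}

@[simp] theorem ro_apply (x : V) : ro v φ x = φ x • v := rfl

theorem ro_mul : ro v φ * ro w ψ = φ w • ro v ψ := LinearMap.ext fun x => by simp [smul_smul, mul_comm]

theorem ro_smul (c : F) : c • ro v φ = ro (c • v) φ := LinearMap.ext fun x => by simp [smul_smul, mul_comm]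

theorem ro_ne (hv : v ≠ 0) (hφ : φ ≠ 0) : ro v φ ≠ 0 := fun e => hφ (LinearMap.ext fun x => by
  simpa [hv] using DFunLike.congr_fun e x)

theorem ro_mu (h1 : φ v = 0) (h2 : ψ w = 0) (e1 : φ w ≠ 0) (e2 : ψ v ≠ 0) : MU (ro v φ) ((φ w * ψ v)⁻¹ • ro w ψ) := by
  constructor <;> simp only [smul_mul_assoc, mul_smul_comm, ro_mul, h1, h2, zero_smul, smul_zero, smul_smul]
  · rw [show (φ w * ψ v)⁻¹ * φ w * ψ v = 1 by field_simp, one_smul]
  · congr 1; field_simp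

theorem ro_conj {a b : Module.End F V} : a * ro v φ * b = ro (a v) (φ ∘ₗ b) := LinearMap.ext fun x => by simp

end Cfsg.Agent.H90
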