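import Cfsg.Agent.H90.CE1
import Cfsg.Agent.H90.ML1
import Cfsg.Agent.H27.TvSL

/-! Transvections of the special linear group; root involutions from root elements. -/

set_option autoImplicit false

namespace Cfsg.Agent.H90
open Cfsg Module Matrix Relation

local notation "SL2" => Matrix.SpecialLinearGroup (Fin 2)

section
variable {k : Type*} [Field k] {R : Type*} [Ring R] [Algebra k R] {G : Type*} [Group G] {ρ : G →* R} {N : Set R}

theorem oo_xu_xl [Finite k] [CharP k 2] {t : k} (ht : t ≠ 0) : OO (xu (1 : k) * xl t) := by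
  have h1 : xu (1 : k) * xu 1 = 1 := by rw [← xu_add, CharTwo.add_self_eq_zero, xu_zero]
  have h2 : xl t * xl t = 1 := by rw [← xl_add, CharTwo.add_self_eq_zero, xl_zero]
  rw [oo_iff, ← Nat.not_even_iff_odd]
  rintro ⟨m, hm⟩
  have h3 : (xu (1 : k) * xl t) ^ m * (xu 1 * xl t) ^ m = 1 := by rw [← pow_add, ← hm, pow_orderOf_eq_one]
  have h4 := H8.conj_mul_zpow h1 h2 m
  rw [_root_.zpow_neg, zpow_natCast, inv2 h3, mul_inv_eq_iff_eq_mul] at h4
  have h5 := ((Commute.refl (xu (1 : k) * xl t)).pow_right m).eq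
  have h0 := orderOf_pos (xu (1 : k) * xl t)
  refine pow_ne_one_of_lt_orderOf (x := xu (1 : k) * xl t) (n := m) (by omega) (by omega) ?_
  generalize (xu (1 : k) * xl t) ^ m = y at *
  rw [mul_assoc, ← mul_assoc y, ← h4, mul_assoc, mul_right_inj] at h5
  have a1 := congrArg (fun g : SL2 k => g.1 0 0) h4
  have a2 := congrArg (fun g : SL2 k => g.1 0 1) h4
  have a3 := congrArg (fun g : SL2 k => g.1 0 0) h5
  have a4 := congrArg (fun g : SL2 k => g.1 0 0) h3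
  simp [sl2_mul_apply, ht] at a1 a2 a3 a4
  have a5 : y.1 0 0 = 1 := by
    have : (y.1 0 0 + 1) ^ 2 = 0 := by rw [CharTwo.add_sq, pow_two, one_pow]; simp_all [CharTwo.add_self_eq_zero]
    simpa [CharTwo.add_eq_zero] using this
  exact sl2_ext (by simpa) (by simpa) (by simpa) (by simp; linear_combination a2 + a5 - a3 + a3)

theorem xu_xl_three [CharP k 2] : (xu (1 : k) * xl 1) ^ 3 = 1 := by
  have : (2 : k) = 0 := CharTwo.two_eq_zero
  refine sl2_ext ?_ ?_ ?_ ?_ <;> simp [pow_succ, sl2_mul_apply] <;> grind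

theorem RE.ri (h : RE k ρ N) [Finite k] [CharP k 2] (hs : ∀ e ∈ N, ∀ c : k, c ≠ 0 → c • e ∈ N)
    (hG : ⨆ A ∈ RT k ρ '' N, A = ⊤) : IsRootInvolutionSet {g | ∃ e ∈ N, ρ g = 1 + e} ∧
      (Nat.card k = 2 → IsThreeFourPlusTranspositionSet {g | ∃ e ∈ N, ρ g = 1 + e}) := by
  have sq : ∀ {g}, (∃ e ∈ N, ρ g = 1 + e) → g * g = 1 := by
    rintro g ⟨e, he, hg⟩
    apply h.inj
    have : e + e = 0 := by rw [← two_smul k, CharTwo.two_eq_zero, zero_smul]
    simp [hg, mul_add, add_mul, h.sq e he, add_assoc, this]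
  have ne : ∀ {g}, (∃ e ∈ N, ρ g = 1 + e) → g ≠ 1 := by
    rintro _ ⟨e, he, hg⟩ rfl; exact h.ne e he (by simpa using hg)
  have tri : ∀ {a b}, (∃ e ∈ N, ρ a = 1 + e) → (∃ e ∈ N, ρ b = 1 + e) → a * b = b * a ∨
      (OO (a * b) ∧ (Nat.card k = 2 → (a * b) ^ 3 = 1)) ∨ ∃ e ∈ N, ρ (a * b * a * b) = 1 + e := by
    intro a b ha hb
    obtain ⟨e, he, e1⟩ := id ha
    obtain ⟨f, hf, e2⟩ := id hb
    rcases h.tri e he f hf with h1 | ⟨c, h1⟩ | h1
    · exact Or.inl (h.cm he hf h1 a ((mem_RT (h.sq e he)).2 ⟨1, by simpa⟩) b ((mem_RT (h.sq f hf)).2 ⟨1, by simpa⟩))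
    · obtain ⟨ψ, a1, a2⟩ := h.exists_hom he hf h1
      have hc := h.mu_ne he h1
      rw [show a = ψ (xu 1) from h.inj (by rw [a1, e1, one_smul]),
        show b = ψ (xl c⁻¹) from h.inj (by rw [a2, e2, smul_smul, inv_mul_cancel₀ hc, one_smul]), ← map_mul]
      obtain ⟨m, hm⟩ := oo_xu_xl (inv_ne_zero hc)
      refine Or.inr (Or.inl ⟨⟨m, by rw [← map_pow, hm, map_one]⟩, fun h2 => ?_⟩)
      obtain ⟨y, -, hy⟩ := (Nat.card_eq_two_iff' (0 : k)).1 h2
      rw [(hy _ (inv_ne_zero hc)).trans (hy 1 one_ne_zero).symm, ← map_pow, xu_xl_three, map_one]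
    · refine Or.inr (Or.inr ⟨_, h1.2.2, ?_⟩)
      simpa [inv2 (sq ha), inv2 (sq hb)] using h.comm_eq he hf h1.1 h1.2.1 (a := a) (b := b) (s := 1) (t := 1)
        (by simpa) (by simpa)
  have cj : ∀ d ∈ {g | ∃ e ∈ N, ρ g = 1 + e}, ∀ g : G, g * d * g⁻¹ ∈ {g | ∃ e ∈ N, ρ g = 1 + e} := by
    rintro d ⟨e, he, hd⟩ g
    exact ⟨_, h.conj e he g, by
      rw [map_mul, map_mul, hd, mul_add, add_mul, mul_one, ← map_mul, mul_inv_cancel, map_one]⟩
  have ri : RI {g | ∃ e ∈ N, ρ g = 1 + e} := ⟨fun _ => sq, fun _ => ne, fun d hd e he => by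
    simpa [inv2 (sq he)] using cj d hd e, fun a ha b hb => (tri ha hb).imp_right (Or.imp_left And.left)⟩
  have hD : IsRootInvolutionSet {g | ∃ e ∈ N, ρ g = 1 + e} := by
    refine ⟨fun d hd => orderOf_eq_prime (by rw [pow_two, sq hd]) (ne hd), eq_top_iff.2 (hG.ge.trans (iSup₂_le ?_)), cj,
      fun a ha b hb => (tri ha hb).imp_right (Or.imp (fun h => oo_iff.1 h.1) fun h1 =>
        ⟨(ri.fo_iff ha hb).2 h1, by simpa [pow_two, mul_assoc] using h1⟩)⟩
    rintro _ ⟨e, he, rfl⟩ g hg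
    obtain ⟨c, hc⟩ := (mem_RT (h.sq e he)).1 hg
    by_cases e1 : c = 0
    · rw [(h.eq_one he hc).2 e1]; exact one_mem _
    · exact Subgroup.subset_closure ⟨_, hs e he c e1, hc⟩
  refine ⟨hD, fun h2 => ⟨hD, fun a ha b hb o => ?_⟩⟩
  by_cases e1 : a = b
  · exact Or.inl (by rw [e1, sq hb, orderOf_one])
  have o : Od a b := ⟨e1, oo_iff.2 o⟩
  rcases tri ha hb with h1 | h1 | h1
  · exact absurd h1 (ri.od_not_comm ha hb o)
  · exact Or.inr (orderOf_eq_prime (h1.2 h2) (o.ne_one (sq ha)))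
  · exact absurd o (ri.fo_not_od ha h1)

end

variable {F : Type*} [Field F] {ι : Type} [Fintype ι] [DecidableEq ι]

/-- the action on column vectors -/
noncomputable def mr {G : Type*} [Group G] (τ : G →* Matrix ι ι F) : G →* Module.End F (ι → F) :=
  (Matrix.toLinAlgEquiv' : Matrix ι ι F ≃ₐ[F] _).toMulEquiv.toMonoidHom.comp τ

theorem mr_apply {G : Type*} [Group G] (τ : G →* Matrix ι ι F) (g : G) (x : ι → F) : mr τ g x = τ g *ᵥ x := rfl

theorem mr_inj {G : Type*} [Group G] {τ : G →* Matrix ι ι F} (h : Function.Injective τ) : Function.Injective (mr τ) :=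
  (Matrix.toLinAlgEquiv' : Matrix ι ι F ≃ₐ[F] _).injective.comp h

theorem rho_ii {G V : Type*} [Group G] [AddCommGroup V] [Module F V] (ρ : G →* Module.End F V) (g : G) (x : V) :
    ρ g⁻¹ (ρ g x) = x := by rw [← Module.End.mul_apply, ← map_mul]; simp

theorem rho_ii' {G V : Type*} [Group G] [AddCommGroup V] [Module F V] (ρ : G →* Module.End F V) (g : G) (x : V) :
    ρ g (ρ g⁻¹ x) = x := by rw [← Module.End.mul_apply, ← map_mul]; simp

/-- the transvection operators -/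
def NL (F V : Type*) [Field F] [AddCommGroup V] [Module F V] : Set (Module.End F V) :=
  {e | ∃ p, ND (fun v φ => φ v = 0) p ∧ e = ro p.1 p.2}

/-- the matrix of an element of `SL` -/
def slM (ι : Type) [Fintype ι] [DecidableEq ι] (F : Type*) [Field F] : SpecialLinearGroup ι F →* Matrix ι ι F :=
  ⟨⟨Subtype.val, rfl⟩, fun _ _ => rfl⟩

theorem re_sl : RE F (mr (slM ι F)) (NL F (ι → F)) := by
  refine ⟨mr_inj Subtype.val_injective, ?_, ?_, ?_, ?_, ?_⟩
  · rintro _ ⟨p, hp, rfl⟩; exact ro_ne hp.2.1 hp.2.2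
  · rintro _ ⟨p, hp, rfl⟩; rw [ro_mul, hp.1, zero_smul]
  · rintro _ ⟨p, hp, rfl⟩ c
    have h1 : p.2 (c • p.1) = 0 := by rw [map_smul, hp.1, smul_zero]
    refine ⟨⟨LinearMap.toMatrix' (H27.tv _ _ h1 : (ι → F) →ₗ[F] _), ?_⟩, LinearMap.ext fun x => ?_⟩
    · rw [LinearMap.det_toMatrix']; exact H27.mem_SLV.1 (H27.tv_mem_SLV _ _ _)
    · exact (LinearMap.toMatrix'_mulVec _ x).trans (by simp [H27.tv_apply, ro_smul])
  · rintro _ ⟨p, hp, rfl⟩ g
    refine ⟨(_, _), ⟨?_, fun e => hp.2.1 ?_, fun e => hp.2.2 (LinearMap.ext fun x => ?_)⟩, ro_conj⟩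
    · simpa [rho_ii] using hp.1
    · rw [← rho_ii (mr (slM ι F)) g p.1, show mr (slM ι F) g p.1 = 0 from e, map_zero]
    · simpa [rho_ii] using DFunLike.congr_fun e (mr (slM ι F) g x)
  · rintro _ ⟨p, hp, rfl⟩ _ ⟨q, hq, rfl⟩
    by_cases e1 : p.2 q.1 = 0 <;> by_cases e2 : q.2 p.1 = 0
    · exact Or.inl (by simp [ro_mul, e1, e2])
    · exact Or.inr (Or.inr ⟨by simp [ro_mul, e1], by simp [ro_mul, e1], (-q.2 p.1 • q.1, p.2),
        ⟨by simp [e1], smul_ne_zero (by simpa) hq.2.1, hp.2.2⟩, LinearMap.ext fun x => by simp [e1, smul_smul, mul_comm]⟩)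
    · exact Or.inr (Or.inr ⟨by simp [ro_mul, e2], by simp [ro_mul, e2], (p.2 q.1 • p.1, q.2),
        ⟨by simp [e2], smul_ne_zero e1 hp.2.1, hq.2.2⟩, by simp [ro_mul, e2, ← ro_smul]⟩)
    · exact Or.inr (Or.inl ⟨_, ro_mu hp.1 hq.1 e1 e2⟩)

theorem nd_single {i j : ι} (h : i ≠ j) :
    ND (fun (v : ι → F) (φ : Dual F (ι → F)) => φ v = 0) (Pi.single i 1, LinearMap.proj j) :=
  ⟨by simp [h.symm], by simp, fun e => by simpa using DFunLike.congr_fun e (Pi.single j 1)⟩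

theorem sl_tv_iff {i j : ι} {c : F} {g : SpecialLinearGroup ι F} : (g : Matrix ι ι F) = transvection i j c ↔
    mr (slM ι F) g = 1 + c • ro (Pi.single i 1) (LinearMap.proj j) := by
  rw [← (Matrix.toLinAlgEquiv' : Matrix ι ι F ≃ₐ[F] _).injective.eq_iff]
  refine iff_of_eq (congrArg _ (LinearMap.ext fun x => ?_))
  ext l
  simp [transvection, add_mulVec, single_mulVec, Pi.single_apply, Function.update_apply]

theorem sl_top : ⨆ A ∈ RT F (mr (slM ι F)) '' NL F (ι → F), A = ⊤ :=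
  H9.sl_subgroup_eq_top_of_transvection _ fun _ _ h _ => re_sl.le_sup ⟨_, nd_single h, rfl⟩ (sl_tv_iff.1 rfl)

theorem sl_conn (h3 : 3 ≤ Fintype.card ι) : IsConnectedFamily (FAdj (RT F (mr (slM ι F)) '' NL F (ι → F)))
    (RT F (mr (slM ι F)) '' NL F (ι → F)) := by
  have ts : TS (Dual.eval F (ι → F)) fun v φ => φ v = 0 := by
    refine ⟨id, by simp, by simp, by simp +contextual, by simp +contextual, by simp +contextual, by simp +contextual,
      by simp +contextual [mul_comm], fun {v φ} h hv hφ => ?_⟩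
    obtain ⟨w, hw⟩ := DFunLike.ne_iff.1 hφ
    obtain ⟨l, h1, h2⟩ := H27.exists_dual_pair (show v ∉ Submodule.span F {w} from fun e => by
      obtain ⟨c, rfl⟩ := Submodule.mem_span_singleton.1 e
      simp_all)
    exact ⟨w, l, h1, hw, by simp [h2]⟩
  rintro _ ⟨_, ⟨p, hp, rfl⟩, rfl⟩ _ ⟨_, ⟨q, hq, rfl⟩, rfl⟩
  obtain ⟨χ, h0, h1⟩ := Submodule.exists_dual_map_eq_bot_of_lt_top (p := Submodule.span F {p.1, q.1}) (by
    classical
    refine Submodule.lt_top_of_finrank_lt_finrank ?_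
    rw [finrank_fintype_fun_eq_card, ← Finset.coe_pair]
    exact (finrank_span_finset_le_card _).trans_lt (Finset.card_le_two.trans_lt h3)) inferInstance
  have h2 : χ p.1 = 0 := h1.le ⟨_, Submodule.subset_span (by simp), rfl⟩
  have h4 : χ q.1 = 0 := h1.le ⟨_, Submodule.subset_span (by simp), rfl⟩
  have := ((ts.same_center hp.1 h2 hp.2.1 hp.2.2 h0).trans (ts.same_axis h2 h4 h0 hp.2.1 hq.2.1)).trans
    (ts.same_center h4 hq.1 hq.2.1 h0 hq.2.2)
  refine this.lift (fun p : _ × _ => RT F (mr (slM ι F)) (ro p.1 p.2)) fun a b o => ?_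
  exact re_sl.fadj ⟨a, o.symm.nd, rfl⟩ ⟨b, o.nd, rfl⟩ (ro_mu o.1 o.2.1 o.2.2.1 o.2.2.2)

end Cfsg.Agent.H90
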