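import Cfsg.Agent.H90.CE2
import Cfsg.Agent.H27.SkHInst

/-! Symplectic and unitary transvections as root elements. -/

set_option autoImplicit false

namespace Cfsg.Agent.H90
open Cfsg Module Relation

variable {k F V G : Type*} [Field k] [Field F] [AddCommGroup V] [Module F V] [Algebra k F] [Module k V]
  [IsScalarTower k F V] [Group G] {ρ : G →* Module.End F V} {σ : F →+* F} {B : V →ₛₗ[σ] V →ₗ[F] F}

/-- transvection operators of a skew-Hermitian form -/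
def NS (k : Type*) [Field k] [Algebra k F] [Module k V] [IsScalarTower k F V] (B : V →ₛₗ[σ] V →ₗ[F] F) :
    Set (Module.End F V) := {e | ∃ p c, p ≠ 0 ∧ B p p = 0 ∧ (c : k) ≠ 0 ∧ e = c • ro p (B p)}

structure SkS (k : Type*) [Field k] [Algebra k F] [Module k V] [IsScalarTower k F V] (ρ : G →* Module.End F V)
    (B : V →ₛₗ[σ] V →ₗ[F] F) : Prop where
  inj : Function.Injective ρ
  fix : ∀ a, σ a = a → ∃ c : k, algebraMap k F c = a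
  inv : ∀ a, σ (σ a) = a
  skew : ∀ x y, B y x = -σ (B x y)
  iso : ∀ g x y, B (ρ g x) (ρ g y) = B x y
  full : ∀ p, B p p = 0 → ∀ c : k, ∃ g, ρ g = 1 + c • ro p (B p)
  two : ∀ p r, p ≠ 0 → B p p = 0 → r ≠ 0 → B r r = 0 → ∃ z, B z z = 0 ∧ B p z ≠ 0 ∧ B r z ≠ 0

theorem mem_NS {p : V} (h0 : p ≠ 0) (h : B p p = 0) : ro p (B p) ∈ NS k B := ⟨p, 1, h0, h, one_ne_zero, (one_smul _ _).symm⟩

namespace SkS
variable (h : SkS k ρ B)
include h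

theorem mu {p r : V} (hp : B p p = 0) (hr : B r r = 0) (e : B p r ≠ 0) {c d : k} (hc : c ≠ 0) (hd : d ≠ 0) :
    ∃ t : k, MU (c • ro p (B p)) (t • d • ro r (B r)) := by
  have e2 : B r p ≠ 0 := by rw [h.skew]; simpa
  have m := ro_mu hp hr e e2
  obtain ⟨t, ht⟩ := h.fix (B p r * B r p)⁻¹ (by rw [map_inv₀, map_mul, h.skew p r, map_neg, h.inv]; ring)
  rw [← ht, algebraMap_smul] at m
  refine ⟨t / (c * d), ?_⟩
  rw [smul_smul, show t / (c * d) * d = c⁻¹ * t by field_simp, mul_smul]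
  constructor <;> simp only [smul_mul_smul_comm, m.ee, m.ff, m.efe, m.fef, smul_zero] <;> congr 1 <;> field_simp

theorem tri : ∀ e ∈ NS k B, ∀ f ∈ NS k B, e * f = f * e ∨ ∃ c : k, MU e (c • f) := by
  rintro _ ⟨p, c, -, hp, hc, rfl⟩ _ ⟨r, d, -, hr, hd, rfl⟩
  by_cases e : B p r = 0
  · exact Or.inl (by simp [ro_mul, e, h.skew p r])
  · exact Or.inr (h.mu hp hr e hc hd)

theorem re : RE k ρ (NS k B) := by
  refine ⟨h.inj, ?_, ?_, ?_, ?_, fun e he f hf => (h.tri e he f hf).imp_right Or.inl⟩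
  · rintro _ ⟨p, c, h0, hp, hc, rfl⟩
    obtain ⟨z, -, hz, -⟩ := h.two p p h0 hp h0 hp
    exact smul_ne_zero hc (ro_ne h0 fun e => hz (by simp [e]))
  · rintro _ ⟨p, c, h0, hp, hc, rfl⟩; simp [ro_mul, hp]
  · rintro _ ⟨p, c, h0, hp, hc, rfl⟩ d; rw [smul_smul]; exact h.full p hp _
  · rintro _ ⟨p, c, h0, hp, hc, rfl⟩ g
    refine ⟨ρ g p, c, fun e => h0 (by rw [← rho_ii ρ g p, e, map_zero]), by rw [h.iso, hp], hc, ?_⟩
    rw [mul_smul_comm, smul_mul_assoc, ro_conj]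
    congr 2
    exact LinearMap.ext fun x => by rw [LinearMap.comp_apply, ← h.iso g, rho_ii']

theorem conn : IsConnectedFamily (FAdj (RT k ρ '' NS k B)) (RT k ρ '' NS k B) := by
  rintro _ ⟨_, ⟨p, c, h0, hp, hc, rfl⟩, rfl⟩ _ ⟨_, ⟨r, d, h1, hr, hd, rfl⟩, rfl⟩
  obtain ⟨z, hz, e1, e2⟩ := h.two p r h0 hp h1 hr
  have h2 : z ≠ 0 := by rintro rfl; simp at e1
  obtain ⟨s, hs⟩ := h.mu hp hz e1 hc one_ne_zero
  obtain ⟨t, ht⟩ := h.mu hr hz e2 hd one_ne_zero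
  exact .head (h.re.fadj ⟨p, c, h0, hp, hc, rfl⟩ ⟨z, 1, h2, hz, one_ne_zero, rfl⟩ hs)
    (.single (fadj_symm (h.re.fadj ⟨r, d, h1, hr, hd, rfl⟩ ⟨z, 1, h2, hz, one_ne_zero, rfl⟩ ht)))

theorem image : RT k ρ '' NS k B = {A | ∃ p, p ≠ 0 ∧ B p p = 0 ∧ A = RT k ρ (ro p (B p))} :=
  Set.ext fun _ => ⟨fun ⟨_, ⟨p, _, h0, hp, hc, e⟩, e'⟩ => ⟨p, h0, hp, by rw [← e', e, RT_smul hc]⟩,
    fun ⟨_, h0, hp, e⟩ => ⟨_, mem_NS h0 hp, e.symm⟩⟩

theorem sub : SkS k (ρ.comp (⨆ A ∈ RT k ρ '' NS k B, A).subtype) B :=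
  ⟨h.re.sub.inj, h.fix, h.inv, h.skew, fun g => h.iso g, fun p hp c => by
    by_cases h0 : p = 0
    · exact ⟨1, LinearMap.ext fun x => by simp [h0]⟩
    · exact h.re.sub.full _ (mem_NS h0 hp) c, h.two⟩

theorem all (hG : ⨆ A ∈ RT k ρ '' NS k B, A = ⊤) {p : V} (h0 : p ≠ 0) (hp : B p p = 0) :
    IsRootSubgroupClass (RT k ρ '' NS k B) ∧ IsDegenerateRootSet (RT k ρ '' NS k B) ∧
    IsKRootSubgroupSet k (RT k ρ '' NS k B) ∧ IsConnectedFamily (FAdj (RT k ρ '' NS k B)) (RT k ρ '' NS k B) :=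
  ⟨class_of_conn (h.re.kroot hG).1 ⟨_, _, mem_NS h0 hp, rfl⟩ h.conn, h.re.degenerate (h.re.kroot hG).1 h.tri,
    h.re.kroot hG, h.conn⟩

end SkS

end Cfsg.Agent.H90
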