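import Cfsg.Agent.H90.CE2
import Cfsg.Agent.H27.OBasic

/-! Siegel transvections as root elements. -/

set_option autoImplicit false

namespace Cfsg.Agent.H90
open Cfsg Module Relation H27 H11

variable {F V G : Type*} [Field F] [AddCommGroup V] [Module F V] [Group G] {ρ : G →* Module.End F V}
  {Q : QuadraticForm F V} {p r s t : V}

/-- the Siegel operator -/
def SE (Q : QuadraticForm F V) (p r : V) : Module.End F V := ro r (pB Q p) - ro p (pB Q r)

@[simp] theorem SE_apply (x : V) : SE Q p r x = pB Q p x • r - pB Q r x • p := rfl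

/-- a singular line -/
structure SL (Q : QuadraticForm F V) (p r : V) : Prop where
  p0 : Q p = 0
  r0 : Q r = 0
  pr : pB Q p r = 0
  ne : SE Q p r ≠ 0

/-- the Siegel operators of singular lines -/
def NO (Q : QuadraticForm F V) : Set (Module.End F V) := {e | ∃ p r, SL Q p r ∧ e = SE Q p r}

theorem SE_comb (a b c d : F) : SE Q (a • p + b • r) (c • p + d • r) = (a * d - b * c) • SE Q p r :=
  LinearMap.ext fun x => by simp; module

theorem SE_swap : SE Q r p = (-1 : F) • SE Q p r := LinearMap.ext fun x => by simp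

theorem SL.swap (h : SL Q p r) : SL Q r p := ⟨h.r0, h.p0, pB_zero h.pr, by rw [SE_swap]; simpa using h.ne⟩

theorem SL.comb (h : SL Q p r) {a b c d : F} (e : a * d - b * c = 1) : SL Q (a • p + b • r) (c • p + d • r) :=
  ⟨by simp [Qadd, Q_smul, h.p0, h.r0, h.pr], by simp [Qadd, Q_smul, h.p0, h.r0, h.pr],
    by simp [pB_self, h.p0, h.r0, h.pr, pB_zero h.pr], by rw [SE_comb, e, one_smul]; exact h.ne⟩

theorem nf2 {x y z w : F} (h : x * w - y * z = 0) :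
    ∃ a b c d : F, a * d - b * c = 1 ∧ c * x + d * z = 0 ∧ c * y + d * w = 0 := by
  by_cases hx : x = 0
  · by_cases hy : y = 0
    · exact ⟨0, -1, 1, 0, by simp [hx, hy]⟩
    · exact ⟨y⁻¹, 0, -w, y, by simp [hy], by linear_combination -h, by ring⟩
  · exact ⟨x⁻¹, 0, -z, x, by simp [hx], by ring, by linear_combination h⟩

theorem SL.nf (h : SL Q p r) (e : pB Q p s * pB Q r t - pB Q p t * pB Q r s = 0) :
    ∃ a b c d : F, a * d - b * c = 1 ∧ pB Q (c • p + d • r) s = 0 ∧ pB Q (c • p + d • r) t = 0 := by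
  simpa using nf2 e

theorem SE_dual (hQ : H11.ND Q) (h : SE Q p r ≠ 0) :
    ∃ u w, pB Q p u = 1 ∧ pB Q r u = 0 ∧ pB Q p w = 0 ∧ pB Q r w = 1 := by
  obtain ⟨x, hx⟩ := DFunLike.ne_iff.1 h
  obtain ⟨y, hy⟩ := not_forall.1 (mt (hQ _) hx)
  have hy : pB Q p x * pB Q r y - pB Q r x * pB Q p y ≠ 0 := by simpa [← pB_eq] using hy
  refine ⟨(pB Q p x * pB Q r y - pB Q r x * pB Q p y)⁻¹ • (pB Q r y • x - pB Q r x • y),
    (pB Q p x * pB Q r y - pB Q r x * pB Q p y)⁻¹ • (pB Q p x • y - pB Q p y • x), ?_, ?_, ?_, ?_⟩ <;>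
    simp only [map_smul, map_sub, smul_eq_mul] <;> field_simp <;> ring

theorem SE_ne_iff (hQ : H11.ND Q) : SE Q p r ≠ 0 ↔ LinearIndependent F ![p, r] := by
  rw [LinearIndependent.pair_iff]
  refine ⟨fun h a b e => ?_, fun h e => ?_⟩
  · obtain ⟨u, w, h1, h2, h3, h4⟩ := SE_dual hQ h
    exact ⟨by simpa [h1, h2] using congrArg (pB Q · u) e, by simpa [h3, h4] using congrArg (pB Q · w) e⟩
  · have : p = 0 := hQ p fun x => (h (-pB Q r x) (pB Q p x) (by
      rw [← LinearMap.zero_apply (σ₁₂ := RingHom.id F) x, ← e, SE_apply]; module)).2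
    simpa [this] using h 1 0

theorem SE_mul3 (h : SL Q p r) : SE Q p r * SE Q s t * SE Q p r =
    (-(pB Q p s * pB Q r t - pB Q p t * pB Q r s)) • SE Q p r := LinearMap.ext fun x => by
  simp [pB_comm s, pB_comm t]; module

theorem SL.sq (h : SL Q p r) : SE Q p r * SE Q p r = 0 :=
  LinearMap.ext fun x => by simp [pB_self, h.p0, h.r0, h.pr, pB_zero h.pr]

theorem SL.mu (h : SL Q p r) (h' : SL Q s t) (e : pB Q p s * pB Q r t - pB Q p t * pB Q r s ≠ 0) :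
    ∃ c : F, MU (SE Q p r) (c • SE Q s t) := by
  refine ⟨-(pB Q p s * pB Q r t - pB Q p t * pB Q r s)⁻¹, h.sq, by simp [h'.sq], ?_, ?_⟩ <;>
    simp only [smul_mul_assoc, mul_smul_comm, SE_mul3 h, SE_mul3 h', smul_smul, pB_comm s, pB_comm t]
  · rw [neg_mul_neg, inv_mul_cancel₀ e, one_smul]
  · congr 1; field_simp

theorem SL.tri0 (h : SL Q p r) (h' : SL Q s t) (e : pB Q p s * pB Q r t - pB Q p t * pB Q r s = 0) :
    SE Q p r * SE Q s t = SE Q s t * SE Q p r ∨ SE Q p r * SE Q s t - SE Q s t * SE Q p r ∈ NO Q := by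
  obtain ⟨a, b, c, d, e1, e2, e3⟩ := h.nf e
  have h1 := h.comb e1
  rw [← one_smul F (SE Q p r), ← e1, ← SE_comb]
  generalize a • p + b • r = p at *
  generalize c • _ + d • r = r at *
  obtain ⟨a, b, c, d, e4, e5, e6⟩ := h'.nf (s := p) (t := r) (by rw [pB_zero e2, pB_zero e3]; simp)
  have h2 := h'.comb e4
  have e7 : pB Q r (a • s + b • t) = 0 := by simp [e2, e3]
  rw [← one_smul F (SE Q s t), ← e4, ← SE_comb]
  generalize a • s + b • t = s at *
  generalize c • _ + d • t = t at *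
  have : SE Q p r * SE Q s t - SE Q s t * SE Q p r = SE Q (pB Q p s • r) t := LinearMap.ext fun x => by
    simp [e5, e6, e7, pB_zero e5, pB_zero e6, pB_zero e7, pB_comm s p]; module
  rw [← sub_eq_zero, this, or_iff_not_imp_left]
  exact fun h => ⟨_, _, ⟨by simp [Q_smul, h1.r0], h2.r0, by simp [pB_zero e6], h⟩, rfl⟩

structure OS (ρ : G →* Module.End F V) (Q : QuadraticForm F V) : Prop where
  inj : Function.Injective ρ
  nd : H11.ND Q
  iso : ∀ g x, Q (ρ g x) = Q x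
  full : ∀ e f : Module.End F V, e * f = 1 → f * e = 1 → (∀ x, Q (e x) = Q x) → ∃ g, ρ g = e

namespace OS
variable (h : OS ρ Q)
include h

theorem isoB (g : G) (x y : V) : pB Q (ρ g x) (ρ g y) = pB Q x y := by
  have := Qadd (Q := Q) (ρ g x) (ρ g y)
  rw [← map_add, h.iso, h.iso, h.iso, Qadd] at this
  linear_combination -this

theorem re : RE F ρ (NO Q) := by
  refine ⟨h.inj, ?_, ?_, ?_, ?_, ?_⟩
  · rintro _ ⟨p, r, l, rfl⟩; exact l.ne
  · rintro _ ⟨p, r, l, rfl⟩; exact l.sq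
  · rintro _ ⟨p, r, l, rfl⟩ c
    refine h.full _ (1 - c • SE Q p r) (by simp [mul_sub, add_mul, l.sq]) (by simp [mul_add, sub_mul, l.sq]) fun x => ?_
    simp [Qadd, Qsub, Q_smul, l.p0, l.r0, pB_zero l.pr, pB_comm x, mul_comm (pB Q p x)]
  · rintro _ ⟨p, r, l, rfl⟩ g
    have : ρ g * SE Q p r * ρ g⁻¹ = SE Q (ρ g p) (ρ g r) := LinearMap.ext fun x => by
      simp only [Module.End.mul_apply, SE_apply, map_sub, map_smul, ← h.isoB g _ (ρ g⁻¹ x), rho_ii']
    refine ⟨_, _, ⟨by rw [h.iso, l.p0], by rw [h.iso, l.r0], by rw [h.isoB, l.pr], fun e => l.ne ?_⟩, this⟩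
    rw [← this] at e
    exact LinearMap.ext fun x => by simpa [rho_ii, -SE_apply] using congrArg (fun f => ρ g⁻¹ (f (ρ g x))) e
  · rintro _ ⟨p, r, l, rfl⟩ _ ⟨s, t, l', rfl⟩
    by_cases e : pB Q p s * pB Q r t - pB Q p t * pB Q r s = 0
    · exact (l.tri0 l' e).imp_right fun h => Or.inr ⟨by simp [SE_mul3 l, e], by
        rw [SE_mul3 l', pB_comm s, pB_comm s, pB_comm t, pB_comm t, mul_comm (pB Q r s), e]; simp, h⟩
    · exact Or.inr (Or.inl (l.mu l' e))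

theorem fix_iff (l : SL Q p r) {g : G} :
    (∀ v, pB Q v p = 0 → pB Q v r = 0 → ρ g v = v) ↔ ∃ c : F, ρ g = 1 + c • SE Q p r := by
  refine ⟨fun hg => ?_, fun ⟨c, hc⟩ v h1 h2 => by simp [hc, pB_zero h1, pB_zero h2]⟩
  obtain ⟨u, w, h1, h2, h3, h4⟩ := SE_dual h.nd l.ne
  have a1 : ∀ v, ρ g (v - pB Q p v • u - pB Q r v • w) = v - pB Q p v • u - pB Q r v • w := fun v =>
    hg _ (pB_zero (by simp [h1, h3])) (pB_zero (by simp [h2, h4]))
  have a2 : ∀ y, ∃ a b : F, ρ g y = y + a • p + b • r := fun y => ⟨pB Q (ρ g y - y) u, pB Q (ρ g y - y) w, by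
    rw [← sub_eq_zero]
    refine h.nd _ fun v => ?_
    have := h.isoB g y (v - pB Q p v • u - pB Q r v • w)
    rw [a1] at this
    simp only [← pB_eq, map_sub, map_add, map_smul, LinearMap.sub_apply, LinearMap.add_apply, LinearMap.smul_apply,
      smul_eq_mul] at this ⊢
    linear_combination this⟩
  obtain ⟨a, b, hu⟩ := a2 u
  obtain ⟨c, d, hw⟩ := a2 w
  have b1 := h.iso g u
  have b2 := h.iso g w
  have b3 := h.isoB g u w
  simp [hu, hw, Qadd, Q_smul, l.p0, l.r0, l.pr, pB_zero l.pr, pB_comm u p, pB_comm u r, pB_comm w p, pB_comm w r, pB_self,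
    h1, h2, h3, h4] at b1 b2 b3
  refine ⟨b, LinearMap.ext fun v => ?_⟩
  have := a1 v
  simp only [map_sub, map_smul, hu, hw, b1, b2, show c = -b by linear_combination b3] at this
  simp only [LinearMap.add_apply, LinearMap.smul_apply, SE_apply, Module.End.one_apply]
  linear_combination (norm := module) this

/-- connectedness -/
abbrev Cn (ρ : G →* Module.End F V) (Q : QuadraticForm F V) (e f : Module.End F V) : Prop :=
  ReflTransGen (FAdj (RT F ρ '' NO Q)) (RT F ρ e) (RT F ρ f)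

theorem cn_col {r' : V} (l : SL Q p r) (l' : SL Q p r') (e : pB Q r r' = 0) : Cn ρ Q (SE Q p r) (SE Q p r') := by
  obtain ⟨u, w, h1, h2, h3, h4⟩ := SE_dual h.nd l.ne
  obtain ⟨-, w', -, -, h5, h6⟩ := SE_dual h.nd l'.ne
  obtain ⟨t, a1, a2, a3⟩ : ∃ t, pB Q p t = 0 ∧ pB Q r t ≠ 0 ∧ pB Q r' t ≠ 0 := by
    by_cases e1 : pB Q r' w = 0
    · by_cases e2 : pB Q r w' = 0
      · exact ⟨w + w', by simp [*]⟩
      · exact ⟨w', by simp [*]⟩
    · exact ⟨w, by simp [*]⟩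
  obtain ⟨t, a1, a2, a3, a4⟩ : ∃ t, pB Q p t = 0 ∧ pB Q r t ≠ 0 ∧ pB Q r' t ≠ 0 ∧ Q t = 0 :=
    ⟨t - (Q t / pB Q r t) • r, by simp [a1, l.pr], by simpa [pB_self, l.r0], by simpa [pB_zero e], by
      simp [Qsub, Q_smul, l.r0, pB_comm t r, a2]⟩
  obtain ⟨s, b1, b2⟩ : ∃ s, pB Q p s = 1 ∧ pB Q t s = 0 :=
    ⟨u - (pB Q t u / pB Q r t) • r, by simp [h1, l.pr], by simp [pB_comm t r, a2]⟩
  obtain ⟨s, b1, b2, b3⟩ : ∃ s, pB Q p s = 1 ∧ pB Q t s = 0 ∧ Q s = 0 :=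
    ⟨s - Q s • p, by simp [b1, pB_self, l.p0], by simp [b2, pB_zero a1], by simp [Qsub, Q_smul, l.p0, pB_comm s p, b1]⟩
  have l2 : SL Q s t := ⟨b3, a4, pB_zero b2, fun e => a2 (by
    simpa [pB_comm s p, b1, pB_zero a1] using congrArg (fun f => pB Q r (f p)) e)⟩
  obtain ⟨c, hc⟩ := l.mu l2 (by simpa [b1, a1])
  obtain ⟨d, hd⟩ := l'.mu l2 (by simpa [b1, a1])
  exact .head (h.re.fadj ⟨_, _, l, rfl⟩ ⟨_, _, l2, rfl⟩ hc) (.single (fadj_symm (h.re.fadj ⟨_, _, l', rfl⟩ ⟨_, _, l2, rfl⟩ hd)))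

omit h in
theorem ts_ext [FiniteDimensional F V] {X : Submodule F V} (hX : ∀ x ∈ X, Q x = 0) (hp : Q p = 0) :
    ∃ Y : Submodule F V, (∀ x ∈ Y, Q x = 0) ∧ p ∈ Y ∧ finrank F X ≤ finrank F Y ∧ ∀ x ∈ X, pB Q p x = 0 → x ∈ Y := by
  by_cases e : p ∈ X
  · exact ⟨X, hX, e, le_rfl, fun _ h _ => h⟩
  refine ⟨(X ⊓ LinearMap.ker (pB Q p)) ⊔ F ∙ p, fun x hx => ?_, Submodule.mem_sup_right (Submodule.mem_span_singleton_self p),
    (finrank_le_inf_ker X (pB Q p)).trans (Submodule.finrank_lt_finrank_of_lt (left_lt_sup.2 fun h => e ?_)),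
    fun x h1 h2 => Submodule.mem_sup_left ⟨h1, h2⟩⟩
  · obtain ⟨y, hy, _, hz, rfl⟩ := Submodule.mem_sup.1 hx
    obtain ⟨c, rfl⟩ := Submodule.mem_span_singleton.1 hz
    simp [Qadd, Q_smul, hp, hX y hy.1, pB_zero hy.2]
  · exact (h (Submodule.mem_span_singleton_self p)).1

variable [FiniteDimensional F V] {X : Submodule F V} (hX : ∀ x ∈ X, Q x = 0) (h3 : 3 ≤ finrank F X)
include hX h3

theorem cn_pt {r' : V} (l : SL Q p r) (l' : SL Q p r') : Cn ρ Q (SE Q p r) (SE Q p r') := by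
  obtain ⟨Y, a1, a2, a3, -⟩ := ts_ext hX l.p0
  obtain ⟨Z, b1, b2, b3, b4⟩ := ts_ext a1 l.r0
  have b5 := b4 p a2 (pB_zero l.pr)
  have := finrank_le_inf_ker Z (pB Q r')
  obtain ⟨z, hz, hz'⟩ : ∃ z ∈ Z ⊓ LinearMap.ker (pB Q r'), z ∉ F ∙ p := SetLike.not_le_iff_exists.1 fun e => by
    have := (Submodule.finrank_mono e).trans (finrank_span_le_card (R := F) {p})
    simp at this; omega
  have hB : ∀ x ∈ Z, pB Q x z = 0 := fun x hx => by simpa [Qadd, b1 x hx, b1 z hz.1] using b1 _ (Z.add_mem hx hz.1)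
  obtain ⟨u, -, h1, -⟩ := SE_dual h.nd l.ne
  have l2 : SL Q p z := ⟨l.p0, b1 z hz.1, hB p b5, fun e => hz' (Submodule.mem_span_singleton.2 ⟨pB Q z u, Eq.symm (by
    simpa [h1, sub_eq_zero] using DFunLike.congr_fun e u)⟩)⟩
  exact (h.cn_col l l2 (hB r b2)).trans (h.cn_col l2 l' (pB_zero hz.2))

theorem conn : IsConnectedFamily (FAdj (RT F ρ '' NO Q)) (RT F ρ '' NO Q) := by
  rintro _ ⟨_, ⟨p, r, l, rfl⟩, rfl⟩ _ ⟨_, ⟨s, t, l', rfl⟩, rfl⟩
  have sw : ∀ p r, RT F ρ (SE Q p r) = RT F ρ (SE Q r p) := fun p r => by rw [SE_swap, RT_smul (by simp)]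
  obtain ⟨a, b, c, d, e1, e2, -⟩ := l.nf (s := s) (t := 0) (by simp)
  have l1 := l.comb e1
  rw [← one_smul F (SE Q p r), ← e1, ← SE_comb]
  generalize a • p + b • r = p at *
  generalize c • _ + d • r = r at *
  by_cases e : SE Q r s = 0
  · obtain ⟨u, -, h1, -⟩ := SE_dual h.nd l'.ne
    have h2 : r = pB Q r u • s := Eq.symm (by simpa [h1, sub_eq_zero] using DFunLike.congr_fun e u)
    generalize pB Q r u = c at h2
    have h4 : SE Q p r = c • SE Q p s := LinearMap.ext fun x => by simp [h2]; module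
    have hc : c ≠ 0 := fun e => l1.ne (by simp [h4, e])
    rw [h4, RT_smul hc, sw]
    exact h.cn_pt hX h3 (SL.swap ⟨l1.p0, l'.p0, by simpa [h2, hc] using l1.pr, fun e => l1.ne (by simp [h4, e])⟩) l'
  · have l2 : SL Q r s := ⟨l1.r0, l'.p0, e2, e⟩
    rw [sw]
    exact (h.cn_pt hX h3 l1.swap l2).trans (sw r s ▸ h.cn_pt hX h3 l2.swap l')

end OS

end Cfsg.Agent.H90
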