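import Cfsg.Agent.H90.Special

/-! Quadratic modules for rank one groups. -/

set_option autoImplicit false

namespace Cfsg.Agent.H90
open Cfsg

variable {X N : Type*} [Group X] [AddCommGroup N] [DistribMulAction X N] {A B : Subgroup X}

local notation "R1" => IsRankOnePair

/-- `A` acts quadratically on `N` -/
def QuadOn (N : Type*) [AddCommGroup N] [DistribMulAction X N] (A : Subgroup X) : Prop :=
  ∀ a ∈ A, ∀ a' ∈ A, ∀ n : N, a' • (a • n - n) = a • n - n

/-- `n` is fixed by `A` -/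
def Fx (A : Subgroup X) (n : N) : Prop := ∀ a ∈ A, a • n = n

theorem Fx.add {u v : N} (hu : Fx A u) (hv : Fx A v) : Fx A (u + v) := fun a ha => by
  rw [smul_add, hu a ha, hv a ha]

theorem Fx.sub {u v : N} (hu : Fx A u) (hv : Fx A v) : Fx A (u - v) := fun a ha => by
  rw [smul_sub, hu a ha, hv a ha]

theorem Fx.neg {u : N} (hu : Fx A u) : Fx A (-u) := fun a ha => by
  rw [smul_neg, hu a ha]

theorem QuadOn.fx (q : QuadOn N A) {a : X} (ha : a ∈ A) (n : N) : Fx A (a • n - n) :=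
  fun a' ha' => q a ha a' ha' n

theorem QuadOn.rc (q : QuadOn N A) (x : X) : QuadOn N (A ^~ x) := by
  intro a ha a' ha' n
  obtain ⟨a, ha1, rfl⟩ := exists_of_mem_rc ha
  obtain ⟨a', ha2, rfl⟩ := exists_of_mem_rc ha'
  have h1 : (x⁻¹ * a * x) • n - n = x⁻¹ • (a • (x • n) - x • n) := by
    rw [smul_sub, mul_smul, mul_smul, inv_smul_smul]
  rw [h1, mul_smul, mul_smul, smul_inv_smul, q a ha1 a' ha2]

theorem QuadOn.right (q : QuadOn N A) (h : R1 A B) : QuadOn N B := by
  obtain ⟨x, -, e⟩ := mem_unip.1 (right_mem_unip h)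
  rw [e]; exact q.rc x

theorem QuadOn.mul (q : QuadOn N A) {a a' : X} (ha : a ∈ A) (ha' : a' ∈ A) (n : N) :
    (a * a') • n - n = (a • n - n) + (a' • n - n) := by
  rw [← q a' ha' a ha n, mul_smul, smul_sub]; abel

theorem QuadOn.inv (q : QuadOn N A) {a : X} (ha : a ∈ A) (n : N) : a⁻¹ • n - n = -(a • n - n) := by
  have := q.mul (A.inv_mem ha) ha n
  rw [inv_mul_cancel, one_smul, sub_self] at this
  exact eq_neg_of_add_eq_zero_left this.symm

theorem QuadOn.pow (q : QuadOn N A) {a : X} (ha : a ∈ A) (k : ℕ) (n : N) :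
    (a ^ k) • n - n = k • (a • n - n) := by
  induction k with
  | zero => simp
  | succ k ih => rw [pow_succ, q.mul (A.pow_mem ha k) ha, ih, succ_nsmul]

theorem fx_rc {u : N} (hu : Fx A u) (x : X) : Fx (A ^~ x) (x⁻¹ • u) := by
  intro a ha
  obtain ⟨a, ha1, rfl⟩ := exists_of_mem_rc ha
  rw [mul_smul, mul_smul, smul_inv_smul, hu a ha1]

theorem quad_core (qa : QuadOn N A) (qb : QuadOn N B) {a b : X} (ha : a ∈ A) (hb : b ∈ B)
    (e : A ^~ b = B ^~ a) {u : N} (hu : Fx A u) :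
    Fx A (u - (a • (b • u - u) - (b • u - u))) ∧ Fx B (u - (a • (b • u - u) - (b • u - u))) := by
  refine ⟨hu.sub (qa.fx ha _), ?_⟩
  have h1 := fx_rc hu b
  rw [e] at h1
  have h2 := fx_rc h1 a⁻¹
  rw [rc_rc_inv, inv_inv] at h2
  have h3 : b⁻¹ • u = u - (b • u - u) := by
    have := qb.inv hb u
    rw [sub_eq_iff_eq_add] at this
    rw [this]; abel
  rw [h3, smul_sub, hu a ha] at h2
  have := h2.add (qb.fx hb u)
  convert this using 1
  abel

/-- if some non-identity element of `B` maps the fixed points of `A` to fixed points of `A`, then the whole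
group acts quadratically -/
theorem quad_degenerate (h : R1 A B) (qa : QuadOn N A) {b : X} (hb : b ∈ B) (hb1 : b ≠ 1)
    (hd : ∀ u : N, Fx A u → Fx A (b • u - u)) :
    ∀ x ∈ A ⊔ B, ∀ y ∈ A ⊔ B, ∀ n : N, y • (x • n - n) = x • n - n := by
  have qb := qa.right h
  obtain ⟨a, ha, -, e⟩ := r1_ex (r1_symm h) hb hb1
  have hU : ∀ u : N, Fx A u → Fx B u := by
    intro u hu
    have := (quad_core qa qb ha hb e.symm hu).2
    rwa [hd u hu a ha, sub_self, sub_zero] at this
  have hW : ∀ w : N, Fx B w → Fx A w := by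
    intro w hw
    have := (quad_core qb qa hb ha e hw).2
    rwa [hU _ (qa.fx ha w) b hb, sub_self, sub_zero] at this
  let Z : Subgroup X → N → Prop := fun K n => ∀ y ∈ K, y • n = n
  have hZ : ∀ n : N, Fx A n → Fx (A ⊔ B) n := by
    intro n hn y hy
    have : A ⊔ B ≤ MulAction.stabilizer X n := sup_le (fun a ha => hn a ha) (fun b hb => hU n hn b hb)
    exact this hy
  let K : Subgroup X :=
    { carrier := {x | x ∈ A ⊔ B ∧ ∀ n : N, Fx (A ⊔ B) (x • n - n)}
      one_mem' := ⟨one_mem _, fun n y _ => by simp⟩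
      mul_mem' := fun {x y} hx hy => ⟨mul_mem hx.1 hy.1, fun n => by
        have := (hx.2 (y • n)).add (hy.2 n)
        rwa [← mul_smul, sub_add_sub_cancel] at this⟩
      inv_mem' := fun {x} hx => ⟨inv_mem hx.1, fun n => by
        have := (hx.2 (x⁻¹ • n)).neg
        rwa [smul_inv_smul, neg_sub] at this⟩ }
  have hK : A ⊔ B ≤ K := sup_le (fun a ha => ⟨Subgroup.mem_sup_left ha, fun n => hZ _ (qa.fx ha n)⟩)
    (fun b hb => ⟨Subgroup.mem_sup_right hb, fun n => hZ _ (hW _ (qb.fx hb n))⟩)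
  intro x hx y hy n
  exact (hK hx).2 n y hy

theorem sp_of_quad (h : R1 A B) (qa : QuadOn N A)
    (hX : ∃ x ∈ A ⊔ B, ∃ y ∈ A ⊔ B, ∃ n : N, y • (x • n - n) ≠ x • n - n) : IsSpecialRankOnePair A B := by
  have qb := qa.right h
  refine sp_of_inv h fun a ha b hb e => ?_
  obtain ⟨b', hb', -, e'⟩ := r1_ex h (A.inv_mem ha) (inv_ne_one.2 (r1_partner_ne_one' h hb e))
  by_cases h1 : b * b' = 1
  · rw [← e', eq_inv_of_mul_eq_one_right h1]
  exfalso
  obtain ⟨x, hx, y, hy, n, hn⟩ := hX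
  refine hn (quad_degenerate h qa (B.mul_mem hb hb') h1 (fun u hu => ?_) x hx y hy n)
  have c1 := (quad_core qa qb ha hb e hu).2
  have hw := qb.fx hb u
  set w := b • u - u with hw'
  have c2 := (quad_core qb qa hb ha e.symm hw).2
  have c3 := (quad_core qb qa hb' (A.inv_mem ha) e'.symm hw).2
  rw [qa.inv ha] at c3
  have c4 := c3.sub c2
  have c5 := c1 (b * b') (B.mul_mem hb hb')
  have c6 := qb.mul hb hb' (a • w - w)
  convert c4 using 1
  rw [smul_sub, sub_eq_sub_iff_sub_eq_sub] at c5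
  rw [c5, c6, smul_neg]
  abel

end Cfsg.Agent.H90
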