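import Cfsg.Agent.H90.Root3

/-! The rank one group acting on a line; structure of lines. -/

set_option autoImplicit false

namespace Cfsg.Agent.H90
open Cfsg

variable {G : Type*} [Group G] {S : Set (Subgroup G)} {A B C D E F P Q : Subgroup G}

local notation "R1" => IsRankOnePair

theorem Sc.eq_one_of_cm (hS : IsRootSubgroupSet S) (h : Sc S C B F) {c : G} (hc : c ∈ C)
    (hcB : ∀ b ∈ B, c * b = b * c) : c = 1 := by
  by_contra hc1
  obtain ⟨f, hf, hf1⟩ := rs_exists_ne_one hS h.mem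
  obtain ⟨b, hb, e⟩ := h.sR c hc hc1 f hf
  exact hf1 (by rw [e, comm_eq_one_of (hcB b hb)])

theorem Sc.sup_rc_eq (h : Sc S A B E) {x : G} (hx : x ∈ B) : (A ⊔ E) ^~ x = A ⊔ E := by
  have k : ∀ x ∈ B, (A ⊔ E) ^~ x ≤ A ⊔ E := fun x hx => by
    rw [rc_sup, h.cB.rc_eq hx]
    exact sup_le (h.symm.rc_le hx) le_sup_right
  refine le_antisymm (k x hx) ?_
  have := rc_mono (k _ (B.inv_mem hx)) x
  rwa [rc_inv_rc] at this

theorem line_unique (hS : IsRootSubgroupSet S) (h : Sc S C B F) {c c' f f' : G} (hc : c ∈ C) (hc' : c' ∈ C)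
    (hf : f ∈ F) (hf' : f' ∈ F) (e : c * f = c' * f') : c = c' ∧ f = f' := by
  have h1 : c'⁻¹ * c = f' * f⁻¹ := by
    calc c'⁻¹ * c = c'⁻¹ * (c * f) * f⁻¹ := by group
      _ = _ := by rw [e]; group
  have h2 := h.inf_left hS (C.mul_mem (C.inv_mem hc') hc) (h1 ▸ F.mul_mem hf' (F.inv_mem hf))
  refine ⟨(inv_mul_eq_one.1 h2).symm, ?_⟩
  rw [h2] at h1
  exact (mul_inv_eq_one.1 h1.symm).symm

theorem pair_r1 (hS : IsRootSubgroupSet S) (hA : A ∈ S) (hB : B ∈ S) (h1 : Sc S C B F) (h2 : Sc S F A C) :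
    R1 A B := by
  obtain ⟨a, ha, ha1⟩ := rs_exists_ne_one hS hA
  obtain ⟨b, hb, hb1⟩ := rs_exists_ne_one hS hB
  obtain ⟨c₀, hc₀, hc₀1⟩ := rs_exists_ne_one hS h2.mem
  -- an element `z` commuting with `A` and `B` and with `a b = b a z`
  have key : ∀ z : G, (∀ x ∈ A, x * z = z * x) → (∀ x ∈ B, x * z = z * x) → (C ⊔ F) ^~ z = C ⊔ F →
      a * b = b * a * z → False := by
    intro z hzA hzB hzN e
    have hzC : ∀ c ∈ C, z⁻¹ * c * z ∈ C := by
      intro c hc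
      have m : z⁻¹ * c * z ∈ C ⊔ F := by rw [← hzN]; exact conj_mem_rc (Subgroup.mem_sup_left hc) z
      obtain ⟨c', hc', f', hf', e'⟩ := mem_sup_of_cm h1.cA.symm m
      have : f' = 1 := h2.eq_one_of_cm hS hf' fun x hx => by
        have t1 : Commute x z := hzA x hx
        have t2 : Commute x c := (h2.cB c hc x hx).symm
        have t3 : Commute x c' := (h2.cB c' hc' x hx).symm
        have t4 := t3.inv_right.mul_right ((t1.inv_right.mul_right t2).mul_right t1)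
        rw [e', inv_mul_cancel_left] at t4
        exact t4.symm.eq
      rw [e', this, mul_one]; exact hc'
    have hzF : ∀ f ∈ F, z⁻¹ * f * z ∈ F := by
      intro f hf
      have m : z⁻¹ * f * z ∈ C ⊔ F := by rw [← hzN]; exact conj_mem_rc (Subgroup.mem_sup_right hf) z
      obtain ⟨c', hc', f', hf', e'⟩ := mem_sup_of_cm h1.cA.symm m
      have : c' = 1 := h1.eq_one_of_cm hS hc' fun x hx => by
        have t1 : Commute x z := hzB x hx
        have t2 : Commute x f := (h1.cB f hf x hx).symm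
        have t3 : Commute x f' := (h1.cB f' hf' x hx).symm
        have t4 := ((t1.inv_right.mul_right t2).mul_right t1).mul_right t3.inv_right
        rw [e', mul_inv_cancel_right] at t4
        exact t4.symm.eq
      rw [e', this, one_mul]; exact hf'
    -- `z` centralizes `C`
    have hzC' : ∀ c ∈ C, z⁻¹ * c * z = c := by
      intro c hc
      obtain ⟨f, hf, ec⟩ := h2.sL a ha ha1 c hc
      have hf' := h1.comm c hc b hb
      set f' := c⁻¹ * b⁻¹ * c * b with hf'def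
      have u1 : a⁻¹ * f * a = f * c := by rw [ec]; group
      have u2 : b⁻¹ * c * b = c * f' := by rw [hf'def]; group
      have u3 : b⁻¹ * f * b = f := by rw [mul_assoc, h1.cB f hf b hb]; group
      have u4 : (a * b)⁻¹ * f * (a * b) = c * (f * f') := by
        calc (a * b)⁻¹ * f * (a * b) = b⁻¹ * (a⁻¹ * f * a) * b := by group
          _ = (b⁻¹ * f * b) * (b⁻¹ * c * b) := by rw [u1]; group
          _ = _ := by rw [u2, u3, ← mul_assoc, h1.cA f hf c hc, mul_assoc]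
      have u5 : (a * b)⁻¹ * f * (a * b) = (z⁻¹ * c * z) * (z⁻¹ * f * z) := by
        calc (a * b)⁻¹ * f * (a * b) = z⁻¹ * (a⁻¹ * (b⁻¹ * f * b) * a) * z := by rw [e]; group
          _ = _ := by rw [u3, u1, h1.cA f hf c hc]; group
      exact (line_unique hS h1 (hzC c hc) hc (hzF f hf) (F.mul_mem hf hf') (u5.symm.trans u4)).1
    obtain ⟨f, hf, ef⟩ := h2.sL a ha ha1 c₀ hc₀
    have hf1 : f ≠ 1 := by rintro rfl; apply hc₀1; rw [ef]; group
    obtain ⟨c, hc, ec⟩ := h1.sL b hb hb1 f hf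
    have u1 : a⁻¹ * f * a = f * c₀ := by rw [ef]; group
    have u2 : b⁻¹ * c * b = c * f := by rw [ec]; group
    have u3 : a⁻¹ * c * a = c := by rw [mul_assoc, h2.cB c hc a ha]; group
    have u4 : (a * b)⁻¹ * c * (a * b) = c * f := by
      calc (a * b)⁻¹ * c * (a * b) = b⁻¹ * (a⁻¹ * c * a) * b := by group
        _ = _ := by rw [u3, u2]
    have u5 : (a * b)⁻¹ * c * (a * b) = (c * c₀) * (z⁻¹ * f * z) := by
      calc (a * b)⁻¹ * c * (a * b) = z⁻¹ * (a⁻¹ * (b⁻¹ * c * b) * a) * z := by rw [e]; group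
        _ = z⁻¹ * ((a⁻¹ * c * a) * (a⁻¹ * f * a)) * z := by rw [u2]; group
        _ = (z⁻¹ * (c * c₀) * z) * (z⁻¹ * f * z) := by rw [u3, u1, h1.cA f hf c₀ hc₀]; group
        _ = _ := by rw [hzC' _ (C.mul_mem hc hc₀)]
    have := (line_unique hS h1 (C.mul_mem hc hc₀) hc (hzF f hf) hf (u5.symm.trans u4)).1
    exact hc₀1 (mul_eq_left.1 this)
  rcases rs_tri hS hA hB with h | h | h
  · exact (key 1 (by simp) (by simp) (rc_one _) (by rw [mul_one]; exact h a ha b hb)).elim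
  · exact h
  · have hz := h.comm a ha b hb
    refine (key _ (fun x hx => (h.cA _ hz x hx).symm) (fun x hx => (h.cB _ hz x hx).symm) ?_ (by group)).elim
    have hA' : ∀ x ∈ A, (C ⊔ F) ^~ x = C ⊔ F := fun x hx => by rw [sup_comm]; exact h2.sup_rc_eq hx
    rw [← rc_rc, ← rc_rc, ← rc_rc, hA' _ (A.inv_mem ha), h1.sup_rc_eq (B.inv_mem hb), hA' _ ha, h1.sup_rc_eq hb]

theorem pair_rc (hS : IsRootSubgroupSet S) (h1 : Sc S C B F) (h2 : Sc S F A C) {a b : G} (ha : a ∈ A)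
    (hb : b ∈ B) (e : A ^~ b = B ^~ a) : C ^~ b = F ^~ a := by
  have key : ∀ {A B C F : Subgroup G} {a b : G}, Sc S C B F → Sc S F A C → a ∈ A → b ∈ B →
      A ^~ b = B ^~ a → C ^~ b ≤ F ^~ a := by
    intro A B C F a b h1 h2 ha hb e x hx
    have m1 : x ∈ (F ⊔ C) ^~ a := by
      rw [h2.sup_rc_eq ha, sup_comm]; exact h1.symm.rc_le hb hx
    rw [mem_rc] at m1 ⊢
    obtain ⟨f, hf, c, hc, e1⟩ := mem_sup_of_cm h1.cA m1
    have h3 : Cm (C ^~ b ^~ a⁻¹) B := by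
      have := (h2.cB.rc b).rc a⁻¹
      rwa [e, rc_rc_inv] at this
    have h4 : a * x * a⁻¹ ∈ C ^~ b ^~ a⁻¹ := by simpa using conj_mem_rc hx a⁻¹
    have : c = 1 := h1.eq_one_of_cm hS hc fun y hy => by
      have t1 : Commute (a * x * a⁻¹) y := h3 _ h4 y hy
      have t2 : Commute f y := h1.cB f hf y hy
      have t3 := t2.inv_left.mul_left t1
      rw [e1, inv_mul_cancel_left] at t3
      exact t3.eq
    rw [e1, this, mul_one]; exact hf
  exact le_antisymm (key h1 h2 ha hb e) (key h2 h1 hb ha e.symm)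

theorem pair_special (hS : IsRootSubgroupSet S) (hA : A ∈ S) (hB : B ∈ S) (h1 : Sc S C B F)
    (h2 : Sc S F A C) : IsSpecialRankOnePair A B := by
  have h := pair_r1 hS hA hB h1 h2
  refine sp_of_inv h fun a ha b hb e => ?_
  obtain ⟨b', hb', -, e'⟩ := r1_ex h (A.inv_mem ha) (inv_ne_one.2 (r1_partner_ne_one' h hb e))
  suffices hbb : b * b' = 1 by rw [← e', eq_inv_of_mul_eq_one_right hbb]
  obtain ⟨c, hc, hc1⟩ := rs_exists_ne_one hS h2.mem
  have m1 := conj_mem_rc hc b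
  rw [pair_rc hS h1 h2 ha hb e] at m1
  obtain ⟨f, hf, e1⟩ := exists_of_mem_rc m1
  have u1 := line_unique hS h1 hc (h2.comm f hf a ha) (h1.comm c hc b hb) hf (by
    rw [h2.cA _ (h2.comm f hf a ha) f hf]
    calc c * (c⁻¹ * b⁻¹ * c * b) = b⁻¹ * c * b := by group
      _ = _ := by rw [e1]; group)
  have m2 := conj_mem_rc hf a⁻¹
  rw [← pair_rc hS h1 h2 (A.inv_mem ha) hb' e'] at m2
  obtain ⟨c', hc', e2⟩ := exists_of_mem_rc m2
  have q1 : f⁻¹ * a⁻¹⁻¹ * f * a⁻¹ = c⁻¹ := by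
    have := h2.comm_mul_right hf ha (A.inv_mem ha)
    rw [mul_inv_cancel, ← u1.1] at this
    refine eq_inv_of_mul_eq_one_left ?_
    rw [← this]; group
  have u2 := line_unique hS h1 hc' (C.inv_mem hc) (h1.comm c' hc' b' hb') hf (by
    rw [← q1, h2.cA _ (h2.comm f hf _ (A.inv_mem ha)) f hf]
    calc c' * (c'⁻¹ * b'⁻¹ * c' * b') = b'⁻¹ * c' * b' := by group
      _ = _ := by rw [← e2]; group)
  have q2 : c⁻¹ * b'⁻¹ * c * b' = f⁻¹ := by
    have := h1.symm.comm_mul_right hb' hc (C.inv_mem hc)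
    have t := u2.2
    rw [u2.1] at t
    have t2 := h1.cA _ (h1.comm c hc b' hb') c hc
    refine eq_inv_of_mul_eq_one_left ?_
    rw [← t]
    calc c⁻¹ * b'⁻¹ * c * b' * (c⁻¹⁻¹ * b'⁻¹ * c⁻¹ * b') = (c⁻¹ * b'⁻¹ * c * b' * c) * (b'⁻¹ * c⁻¹ * b') := by group
      _ = 1 := by rw [t2]; group
  have q3 := h1.comm_mul_right hc hb hb'
  rw [q2, u1.2, inv_mul_cancel] at q3
  have q4 : (b * b') * c = c * (b * b') := by
    calc (b * b') * c = (b * b') * c * (c⁻¹ * (b * b')⁻¹ * c * (b * b')) := by rw [q3, mul_one]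
      _ = _ := by group
  exact (h1.symm.comm_ne_one hS hB hA (r1_symm h) (B.mul_mem hb hb') hc q4).resolve_right hc1

/-- structure of a line when there are no isolated vertices -/
theorem Ln.structure (hS : IsRootSubgroupSet S) (hF : ∀ X ∈ S, ∃ Y ∈ S, R1 X Y) (hA : A ∈ S) (hD : D ∈ S)
    (hAD : R1 A D) (h : Ln S A B) :
    ∃ P ∈ S, ∃ F ∈ S, Sc S P D F ∧ Sc S A F P ∧ A ⊔ P = A ⊔ B := by
  obtain ⟨P, hP, hle, hne, hn⟩ := h.exists_not_r1 hS hA hAD
  have s1 := sc_of_line hS hA hD hAD h hP hle hne hn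
  have s2 := sc_back hS hF hA hD hP hAD ((h.cm_all hS hA).mono le_sup_left hle) (fun a ha c hc h1 => by
    obtain ⟨Q, hQ, -, hx⟩ := h.cover _ ((A ⊔ B).mul_mem (Subgroup.mem_sup_left ha) (hle hc)) h1
    exact ⟨Q, hQ, hx⟩) s1
  refine ⟨P, hP, _, s1.mem, s1, s2.symm, le_antisymm (sup_le le_sup_left hle) (sup_le le_sup_left ?_)⟩
  obtain ⟨p, hp, hp1⟩ := rs_exists_ne_one hS hP
  obtain ⟨a, ha, b, hb, e⟩ := mem_sup_of_cm h.cm (hle hp)
  have hb1 : b ≠ 1 := by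
    rintro rfl
    exact hp1 (s2.symm.inf_left hS (by rw [e, mul_one]; exact ha) hp)
  have hb2 : b ∈ A ⊔ P := by
    have : b = a⁻¹ * p := by rw [e]; group
    rw [this]; exact Subgroup.mul_mem_sup (A.inv_mem ha) hp
  obtain ⟨B', hB', hBB'⟩ := hF B h.mem
  rcases s2.symm.cover hb2 with h1 | ⟨f, hf, h1⟩
  · rw [rs_eq_of_mem hS hB' hBB' hP hb1 hb h1]; exact le_sup_right
  · rw [rs_eq_of_mem hS hB' hBB' (rs_rc hS hA f) hb1 hb h1]; exact s2.rc_le hf

/-- two different points of a line span it -/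
theorem Ln.span (hS : IsRootSubgroupSet S) (hF : ∀ X ∈ S, ∃ Y ∈ S, R1 X Y) (hA : A ∈ S) (h : Ln S A B)
    (hP : P ∈ S) (hQ : Q ∈ S) (hP' : P ≤ A ⊔ B) (hQ' : Q ≤ A ⊔ B) (hne : Q ≠ P) : P ⊔ Q = A ⊔ B := by
  obtain ⟨D, hD, hAD⟩ := hF A hA
  obtain ⟨R, hR, F, hF', -, s, e⟩ := h.structure hS hF hA hD hAD
  rw [← e] at hP' hQ' ⊢
  have k : ∀ f ∈ F, A ^~ f ⊔ R = A ⊔ R := fun f hf => by
    have := s.sup_rc_eq hf
    rwa [rc_sup, s.cB.rc_eq hf] at this
  rcases s.points hS hA hD hAD hP hP' with rfl | ⟨f, hf, rfl⟩ <;>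
    rcases s.points hS hA hD hAD hQ hQ' with rfl | ⟨f', hf', rfl⟩
  · exact absurd rfl hne
  · rw [sup_comm]; exact k f' hf'
  · exact k f hf
  · have h1 : f' * f⁻¹ ≠ 1 := fun e1 => hne (by rw [mul_inv_eq_one.1 e1])
    have := s.sup_rc (F.mul_mem hf' (F.inv_mem hf)) h1
    rw [← s.sup_rc_eq hf, ← this, rc_sup, rc_rc, inv_mul_cancel_right]

/-- for two different points `P`, `Q` of a line some member `E` has `[P, E] = Q` -/
theorem Ln.exists_sc (hS : IsRootSubgroupSet S) (hF : ∀ X ∈ S, ∃ Y ∈ S, R1 X Y) (hA : A ∈ S) (h : Ln S A B) :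
    ∃ E ∈ S, Sc S A E B := by
  obtain ⟨D, hD, hBD⟩ := hF B h.mem
  obtain ⟨D', hD', hAD'⟩ := hF A hA
  obtain ⟨P, hP, F, hF1, -, s, e⟩ := (h.symm hA).structure hS hF h.mem hD hBD
  -- `s : Sc B F P`; the points other than `P` are the conjugates of `B` under `F`
  obtain ⟨D₂, hD₂, hPD₂⟩ := hF P hP
  obtain ⟨P', hP', F', hF2, -, s', e'⟩ := ((s.ln hS h.mem hD hBD).symm h.mem).structure hS hF hP hD₂ hPD₂
  -- `s' : Sc P F' P'`
  have hP'le : P' ≤ B ⊔ P := by rw [sup_comm, ← e']; exact le_sup_right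
  -- a member `E₀` with `[X, E₀] = B` for some point `X`
  have main : ∃ X ∈ S, ∃ E ∈ S, Sc S X E B ∧ X ⊔ B = B ⊔ P := by
    rcases s.points hS h.mem hD hBD hP' hP'le with h1 | ⟨f, hf, h1⟩
    · exact absurd h1.symm (s'.ne_left hS)
    · have := s'.rc hS f⁻¹
      rw [h1, rc_rc_inv, s.cB.rc_eq (F.inv_mem hf)] at this
      exact ⟨P, hP, _, rs_rc hS hF2 _, this, sup_comm _ _⟩
  obtain ⟨X, hX, E, hE, sX, eX⟩ := main
  obtain ⟨X', hX', hXX'⟩ := hF X hX
  rcases sX.points hS hX hX' hXX' hA (by rw [eX, e]; exact le_sup_right) with h1 | ⟨x, hx, h1⟩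
  · exact absurd h1.symm h.ne
  · have := sX.rc hS x
    rw [← h1, rc_of_mem hx, sX.cB.rc_eq hx] at this
    exact ⟨E, hE, this⟩

/-- non-degenerate classes: a line partner of `A` in the commutator case with `B ∈ Ω_A` -/
theorem class_exists_ln_sc (hS : IsRootSubgroupClass S) (hnd : IsNondegenerateRootSet S) (hA : A ∈ S)
    (hB : B ∈ S) (h : R1 A B) : ∃ C ∈ S, ∃ F ∈ S, Ln S A C ∧ Sc S C B F ∧ Sc S A F C := by
  obtain ⟨E, hE, s⟩ := class_sc hS hnd hA
  obtain ⟨P, hP, F, hF, s1, s2, -⟩ := (s.ln hS.1 hA hB h).structure hS.1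
    (fun X hX => class_nd_partner hS hnd hX) hA hB h
  exact ⟨P, hP, F, hF, s2.ln hS.1 hA hB h, s1, s2⟩

theorem class_nd_special (hS : IsRootSubgroupClass S) (hnd : IsNondegenerateRootSet S) (hA : A ∈ S)
    (hB : B ∈ S) (h : R1 A B) : IsSpecialRankOnePair A B := by
  obtain ⟨C, -, F, -, -, s1, s2⟩ := class_exists_ln_sc hS hnd hA hB h
  exact pair_special hS.1 hA hB s1 s2.symm

end Cfsg.Agent.H90
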