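import Cfsg.Agent.H90.Root4

/-! Non-degenerate classes of abstract root subgroups: connectedness and generation. -/

set_option autoImplicit false

namespace Cfsg.Agent.H90
open Cfsg

variable {G : Type*} [Group G] {S : Set (Subgroup G)} {A B C D E F P Q : Subgroup G}

local notation "R1" => IsRankOnePair

theorem class_e_conn (hS : IsRootSubgroupClass S) (hnd : IsNondegenerateRootSet S) (hA : A ∈ S) (hB : B ∈ S) :
    Relation.ReflTransGen (EAdj S S) A B := by
  obtain ⟨g, rfl⟩ := class_conj hS hA hB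
  have edge : ∀ {X Y : Subgroup G}, X ∈ S → Ln S X Y → Relation.ReflTransGen (EAdj S S) X Y :=
    fun hX h => Relation.ReflTransGen.single ⟨hX, h.mem, ln_iff.2 h⟩
  have sc : ∀ {X E K : Subgroup G} {e : G}, X ∈ S → Sc S X E K → e ∈ E →
      Relation.ReflTransGen (EAdj S S) X (X ^~ e) := by
    intro X E K e hX h he
    by_cases he1 : e = 1
    · rw [he1, rc_one]
    · obtain ⟨Y, hY, hXY⟩ := class_nd_partner hS hnd hX
      exact edge hX (h.ln_rc hS.1 hX hY hXY he he1)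
  refine (rs_invariant hS.1 (Q := fun X => X ∈ S ∧ Relation.ReflTransGen (EAdj S S) A X) ?_ g
    ⟨hA, Relation.ReflTransGen.refl⟩).2
  rintro E hE e he X ⟨hX, hc⟩
  refine ⟨rs_rc hS.1 hX e, hc.trans ?_⟩
  rcases rs_tri hS.1 hX hE with h | h | h
  · rw [h.rc_eq he]
  · obtain ⟨C, hC, F, -, hl, s1, -⟩ := class_exists_ln_sc hS hnd hX hE h
    exact ((edge hX hl).trans (sc hC s1 he)).trans
      (edge (rs_rc hS.1 hC e) ((hl.symm hX).rc hS.1 e))
  · exact sc hX h he

theorem class_generated (hS : IsRootSubgroupClass S) (hnd : IsNondegenerateRootSet S) (hA : A ∈ S)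
    (hB : B ∈ S) (h : R1 A B) {U : Subgroup G} (hU : ∀ C, Ln S A C → C ≤ U) (hBU : B ≤ U) : U = ⊤ := by
  have hF : ∀ X ∈ S, ∃ Y ∈ S, R1 X Y := fun X hX => class_nd_partner hS hnd hX
  -- every line partner of `A` is conjugate to `A` in `U`
  have key : ∀ C, Ln S A C → ∃ u ∈ U, C = A ^~ u := by
    intro C hl
    obtain ⟨P, hP, F, hF', s1, s2, e⟩ := hl.structure hS.1 hF hA hB h
    have hlP := s2.ln hS.1 hA hB h
    have hFU : F ≤ U := s1.eq ▸ (Subgroup.commutator_le_sup _ _).trans (sup_le (hU P hlP) hBU)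
    rcases s2.points hS.1 hA hB h hl.mem (e ▸ le_sup_right) with rfl | ⟨f, hf, rfl⟩
    · obtain ⟨E, hE, s3⟩ := (hl.symm hA).exists_sc hS.1 hF hl.mem
      obtain ⟨E', hE', hEE'⟩ := hF E hE
      have hEU : E ≤ U := hU E ((s3.symm.ln hS.1 hE hE' hEE').symm hE)
      obtain ⟨x, hx, hx1⟩ := rs_exists_ne_one hS.1 hE
      rcases s2.points hS.1 hA hB h (rs_rc hS.1 hP x) (by rw [sup_comm]; exact s3.symm.rc_le hx)
        with h1 | ⟨f, hf, h1⟩
      · exact absurd (s3.rc_injective hS.1 hx h1) hx1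
      · exact ⟨f * x⁻¹, mul_mem (hFU hf) (inv_mem (hEU hx)), by rw [← rc_rc, ← h1, rc_rc_inv]⟩
    · exact ⟨f, hFU hf, rfl⟩
  have hAU : A ≤ U := by
    obtain ⟨C, -, -, -, hl, -⟩ := class_exists_ln_sc hS hnd hA hB h
    obtain ⟨u, hu, e⟩ := key C hl
    have := rc_le_of_mem (hU C hl) (inv_mem hu)
    rwa [e, rc_rc_inv] at this
  refine rs_eq_top hS.1 fun X hX => ?_
  have : ∃ u ∈ U, X = A ^~ u := by
    have hc := class_e_conn hS hnd hA hX
    induction hc with
    | refl => exact ⟨1, one_mem _, (rc_one _).symm⟩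
    | tail _ h2 ih =>
      obtain ⟨u, hu, rfl⟩ := ih h2.1
      have h3 := (ln_iff.1 h2.2.2).rc hS.1 u⁻¹
      rw [rc_rc_inv] at h3
      obtain ⟨v, hv, e⟩ := key _ h3
      exact ⟨v * u, mul_mem hv hu, by rw [← rc_rc, ← e, rc_inv_rc]⟩
  obtain ⟨u, hu, rfl⟩ := this
  exact rc_le_of_mem hAU hu

end Cfsg.Agent.H90
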