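import Cfsg.Agent.H90.Root4

/-! Triangles: two commuting root subgroups with a common rank one partner. -/

set_option autoImplicit false

namespace Cfsg.Agent.H90
open Cfsg

variable {G : Type*} [Group G] {S : Set (Subgroup G)} {A B C D : Subgroup G}

local notation "R1" => IsRankOnePair

theorem tri_m (hA : Cm A A) (hAD : R1 A D) (hCD : R1 C D) (hAC : Cm A C) :
    ∃ m : G, (∀ d ∈ D, d * m = m * d) ∧ A ^~ m = C := by
  obtain ⟨a, ha, ha1⟩ := r1_exists_ne_one hAD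
  obtain ⟨d, hd, hd1, e1⟩ := r1_ex hAD ha ha1
  obtain ⟨c, hc, -, e2⟩ := r1_ex (r1_symm hCD) hd hd1
  have hP := rc_right_mem_unip hAD ha
  have hne : D ^~ a ≠ D := (r1_rc_self hAD ha ha1).ne.symm
  have hu := unip_unip hAD hP (right_mem_unip hAD) hne
  have hA' : A ∈ unipotentSubgroups (D ^~ a) D := by rw [hu]; exact left_mem_unip
  obtain ⟨p, hp, e3⟩ := (unip_cases (unip_r1 hAD hP (right_mem_unip hAD) hne) hA').resolve_left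
    (r1_rc_right hAD ha).ne
  have hPQ : Cm (C ^~ d) (D ^~ a) := by rw [← e1]; exact (hAC.rc d).symm
  have g1 : A ^~ (d * p) = D ^~ a := by rw [← rc_rc, e1, rc_of_mem hp]
  have g2 : C ^~ (d * p) = D ^~ c := by rw [← rc_rc, hPQ.rc_eq hp, e2]
  have g3 : D ^~ (d * p) = A := by rw [← rc_rc, rc_of_mem hd, ← e3]
  refine ⟨(d * p) * (a⁻¹ * c) * (d * p)⁻¹, fun x hx => ?_, ?_⟩
  · have h1 := conj_mem_rc hx (d * p)
    rw [g3] at h1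
    have h2 := (hA.sup_right hAC) _ h1 _ (Subgroup.mul_mem_sup (A.inv_mem ha) hc)
    calc x * (d * p * (a⁻¹ * c) * (d * p)⁻¹) = (d * p) * ((d * p)⁻¹ * x * (d * p) * (a⁻¹ * c)) * (d * p)⁻¹ := by
          group
      _ = _ := by rw [h2]; group
  · rw [← rc_rc, ← rc_rc, g1, rc_rc D a, mul_inv_cancel_left, ← g2, rc_rc_inv]

theorem tri_uniq (hAD : R1 A D) (hCD : R1 C D) {a c c' : G} (ha : a ∈ A) (hc : c ∈ C) (hc' : c' ∈ C)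
    (h1 : Cm (D ^~ a) (D ^~ c)) (h2 : Cm (D ^~ a) (D ^~ c')) : c = c' := by
  by_contra hne
  have h3 := h1.sup_right h2
  rw [unip_sup hCD (rc_right_mem_unip hCD hc) (rc_right_mem_unip hCD hc')
    (fun e => hne (r1_uniq hCD hc hc' e))] at h3
  have h4 := unip_eq_of_cm hAD (rc_right_mem_unip hAD ha) (right_mem_unip hAD) (h3.mono le_rfl le_sup_right)
  rw [h4] at h1 h2
  exact hne (r1_uniq hCD hc hc' ((unip_eq_of_cm hCD (right_mem_unip hCD) (rc_right_mem_unip hCD hc) h1).symm.trans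
    (unip_eq_of_cm hCD (right_mem_unip hCD) (rc_right_mem_unip hCD hc') h2)))

theorem tri_partner {m a d : G} (hm : ∀ d ∈ D, d * m = m * d) (hmA : A ^~ m = C) (hd : d ∈ D)
    (e : A ^~ d = D ^~ a) : C ^~ d = D ^~ (m⁻¹ * a * m) := by
  have hDm : D ^~ m⁻¹ = D := rc_inv_of_eq (rc_of_comm hm)
  rw [← rc_rc, ← rc_rc, hDm, ← e, rc_rc, hm d hd, ← rc_rc, hmA]

theorem tri_match (hD : Cm D D) (hAD : R1 A D) (hAC : Cm A C) {m : G} (hm : ∀ d ∈ D, d * m = m * d)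
    (hmA : A ^~ m = C) {a : G} (ha : a ∈ A) : Cm (D ^~ a) (D ^~ (m⁻¹ * a * m)) := by
  by_cases ha1 : a = 1
  · rw [ha1, mul_one, inv_mul_cancel]; exact hD.rc 1
  · obtain ⟨d, hd, -, e⟩ := r1_ex hAD ha ha1
    rw [← tri_partner hm hmA hd e, ← e]
    exact hAC.rc d

theorem tri_form (hD : Cm D D) (hAD : R1 A D) (hCD : R1 C D) (hAC : Cm A C) {m : G}
    (hm : ∀ d ∈ D, d * m = m * d) (hmA : A ^~ m = C) {x : G} (hx : x ∈ A ⊔ C) :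
    Cm D (D ^~ x) ↔ ∃ a ∈ A, x = (m⁻¹ * a * m)⁻¹ * a := by
  constructor
  · intro h
    obtain ⟨a, ha, c, hc, rfl⟩ := mem_sup_of_cm hAC hx
    have h1 := h.rc c⁻¹
    rw [rc_rc, mul_inv_cancel_right] at h1
    have h2 : m⁻¹ * a * m ∈ C := by rw [← hmA]; exact conj_mem_rc ha m
    have := tri_uniq hAD hCD ha h2 (C.inv_mem hc) (tri_match hD hAD hAC hm hmA ha) h1.symm
    exact ⟨a, ha, by rw [this, inv_inv, hAC a ha c hc]⟩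
  · rintro ⟨a, ha, rfl⟩
    have h2 : m⁻¹ * a * m ∈ C := by rw [← hmA]; exact conj_mem_rc ha m
    have := (tri_match hD hAD hAC hm hmA ha).rc (m⁻¹ * a * m)⁻¹
    rw [rc_rc_inv, rc_rc, hAC a ha _ (C.inv_mem h2)] at this
    exact this.symm

theorem tri_line (hA : Cm A A) (hC : Cm C C) (hD : Cm D D) (hAD : R1 A D) (hCD : R1 C D) (hAC : Cm A C)
    {x y : G} (hx : x ∈ A ⊔ C) (hy : y ∈ A ⊔ C) (h1 : Cm D (D ^~ x)) (h2 : Cm D (D ^~ y)) :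
    Cm (D ^~ x) (D ^~ y) := by
  obtain ⟨m, hm, hmA⟩ := tri_m hA hAD hCD hAC
  obtain ⟨a, ha, rfl⟩ := (tri_form hD hAD hCD hAC hm hmA hx).1 h1
  obtain ⟨a', ha', rfl⟩ := (tri_form hD hAD hCD hAC hm hmA hy).1 h2
  have h3 := (tri_form hD hAD hCD hAC hm hmA (mul_mem hy (inv_mem hx))).2 ⟨a' * a⁻¹, A.mul_mem ha' (A.inv_mem ha), by
    have k : ∀ a ∈ A, m⁻¹ * a * m ∈ C := fun a ha => by rw [← hmA]; exact conj_mem_rc ha m
    have t1 := hAC _ (A.mul_mem ha' (A.inv_mem ha)) _ (k a ha)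
    have t2 := hC _ (C.inv_mem (k a' ha')) _ (k a ha)
    calc (m⁻¹ * a' * m)⁻¹ * a' * ((m⁻¹ * a * m)⁻¹ * a)⁻¹ = (m⁻¹ * a' * m)⁻¹ * (a' * a⁻¹ * (m⁻¹ * a * m)) := by group
      _ = ((m⁻¹ * a' * m)⁻¹ * (m⁻¹ * a * m)) * (a' * a⁻¹) := by rw [t1]; group
      _ = _ := by rw [t2]; group⟩
  have := h3.rc ((m⁻¹ * a * m)⁻¹ * a)
  rwa [rc_rc, inv_mul_cancel_right] at this

theorem tri_mu (hA : Cm A A) (hAC : Cm A C) {m a d : G} (hm : ∀ d ∈ D, d * m = m * d) (hmA : A ^~ m = C)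
    (ha : a ∈ A) (hd : d ∈ D) (e : A ^~ d = D ^~ a) {n μ : G} (hn : n = (m⁻¹ * a * m)⁻¹ * a)
    (hμ : μ = n * d * n⁻¹ * d⁻¹) : ∀ x ∈ A, x * (m * μ⁻¹) = (m * μ⁻¹) * x := by
  intro x hx
  have h2 : m⁻¹ * a * m ∈ C := by rw [← hmA]; exact conj_mem_rc ha m
  have hnA : Commute x n := by
    rw [hn]
    exact Commute.mul_right (hAC x hx _ (C.inv_mem h2)) (hA x hx a ha)
  have h1 : d⁻¹ * x * d ∈ D ^~ a := by rw [← e]; exact conj_mem_rc hx d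
  have h3 := hm _ (mem_rc.1 h1)
  have h4 : Commute x (d * (a⁻¹ * m * a) * d⁻¹) := by
    change x * _ = _ * x
    calc x * (d * (a⁻¹ * m * a) * d⁻¹) = d * a⁻¹ * (a * (d⁻¹ * x * d) * a⁻¹ * m) * a * d⁻¹ := by group
      _ = _ := by rw [h3]; group
  have h5 : m * μ⁻¹ = d * (a⁻¹ * m * a) * d⁻¹ * n⁻¹ := by
    rw [hμ, hn]
    calc m * ((m⁻¹ * a * m)⁻¹ * a * d * ((m⁻¹ * a * m)⁻¹ * a)⁻¹ * d⁻¹)⁻¹
        = (m * d) * ((m⁻¹ * a * m)⁻¹ * a) * d⁻¹ * ((m⁻¹ * a * m)⁻¹ * a)⁻¹ := by group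
      _ = _ := by rw [← hm d hd]; group
  rw [h5]
  exact (h4.mul_right hnA.inv_right).eq

theorem rc_eq_of_comm_mul {m μ : G} (h : ∀ x ∈ A, x * (m * μ⁻¹) = (m * μ⁻¹) * x) : A ^~ μ = A ^~ m := by
  have := rc_of_comm h
  rw [← rc_rc, rc_eq_iff, inv_inv] at this
  exact this.symm

theorem tri_special (hS : IsRootSubgroupSet S) (hA : A ∈ S) (hC : C ∈ S) (hD : D ∈ S) (hAD : R1 A D)
    (hCD : R1 C D) (hAC : Cm A C) (hne : A ≠ C) : IsSpecialRankOnePair A D := by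
  have cA := rs_cm hS hA
  have cD := rs_cm hS hD
  obtain ⟨m, hm, hmA⟩ := tri_m cA hAD hCD hAC
  refine sp_of_inv hAD fun a ha d hd e => ?_
  obtain ⟨d', hd', -, e'⟩ := r1_ex hAD (A.inv_mem ha) (inv_ne_one.2 (r1_partner_ne_one' hAD hd e))
  by_cases hdd : d' * d = 1
  · rw [← e', eq_inv_of_mul_eq_one_left hdd]
  exfalso
  have h2 : m⁻¹ * a * m ∈ C := by rw [← hmA]; exact conj_mem_rc ha m
  set n := (m⁻¹ * a * m)⁻¹ * a with hn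
  have hnAC : n ∈ A ⊔ C := mul_mem (Subgroup.mem_sup_right (C.inv_mem h2)) (Subgroup.mem_sup_left ha)
  have hn' : n⁻¹ = (m⁻¹ * a⁻¹ * m)⁻¹ * a⁻¹ := by
    rw [hn]
    have := hAC _ (A.inv_mem ha) _ h2
    calc ((m⁻¹ * a * m)⁻¹ * a)⁻¹ = a⁻¹ * (m⁻¹ * a * m) := by group
      _ = _ := by rw [this]; group
  have hDn : Cm D (D ^~ n) := (tri_form cD hAD hCD hAC hm hmA hnAC).2 ⟨a, ha, rfl⟩
  have k1 := tri_mu cA hAC hm hmA ha hd e hn rfl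
  have k2 := tri_mu cA hAC hm hmA (A.inv_mem ha) hd' e' hn' rfl
  set μ := n * d * n⁻¹ * d⁻¹ with hμ
  set μ' := n⁻¹ * d' * n⁻¹⁻¹ * d'⁻¹ with hμ'
  have hAμ : A ^~ μ = C := by rw [rc_eq_of_comm_mul k1, hmA]
  have k3 : Cm A ((A ⊔ C) ^~ μ⁻¹) := by
    have := (hAC.symm.sup_right (rs_cm hS hC)).rc μ⁻¹
    rwa [← hAμ, rc_rc_inv, hAμ] at this
  set u := (n⁻¹ * (d' * d) * n) * (d' * d)⁻¹ with hu
  have hu1 : u = (m * μ'⁻¹)⁻¹ * (m * μ⁻¹) * (μ⁻¹⁻¹ * n⁻¹ * μ⁻¹) * n := by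
    have t1 := hDn _ (D.inv_mem hd') _ (conj_mem_rc hd n)
    have t2 := cD _ (D.inv_mem hd') _ (D.inv_mem hd)
    rw [hu, hμ, hμ']
    calc n⁻¹ * (d' * d) * n * (d' * d)⁻¹ = n⁻¹ * d' * n * (n⁻¹ * d * n) * (d⁻¹ * d'⁻¹) := by group
      _ = n⁻¹ * d' * n * ((n⁻¹ * d * n) * d'⁻¹) * d⁻¹ := by rw [← t2]; group
      _ = _ := by rw [← t1]; group
  have huA : ∀ x ∈ A, x * u = u * x := by
    intro x hx
    rw [hu1]
    exact ((((Commute.inv_right (k2 x hx : Commute x _)).mul_right (k1 x hx : Commute x _)).mul_right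
      (k3 x hx _ (conj_mem_rc (inv_mem hnAC) μ⁻¹) : Commute x _)).mul_right
      ((cA.sup_right hAC) x hx n hnAC : Commute x _)).eq
  have hdd' := D.mul_mem hd' hd
  have huD : ∀ x ∈ D, x * u = u * x := fun x hx =>
    (Commute.mul_right (hDn x hx _ (conj_mem_rc hdd' n) : Commute x _)
      (cD x hx _ (D.inv_mem hdd') : Commute x _)).eq
  have hu2 := rs_no_central_mul hS hA (r1_symm hAD) huD huA hdd' hdd (rs_rc hS hD n)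
    (by rw [hu, inv_mul_cancel_right]; exact conj_mem_rc hdd' n)
  have h3 := rs_eq_of_mem hS hA (r1_symm hAD) (rs_rc hS hD n) hdd hdd'
    (by rw [← mul_inv_eq_one.1 hu2]; exact conj_mem_rc hdd' n)
  have h4 := tri_partner hm hmA hd' e'
  apply hne
  apply rc_inj (g := d')
  rw [h4, e', ← rc_eq_iff.1 (show D ^~ (m⁻¹ * a⁻¹ * m) ^~ a = D by
    rw [rc_rc]; convert h3.symm using 2; rw [hn]; group)]

theorem tri_comm (hA : Cm A A) (hAD : R1 A D) {n δ : G} (hn : ∀ x ∈ A, x * n = n * x) (h : Cm D (D ^~ n))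
    (hδ : δ ∈ D) : Cm A (A ^~ (δ⁻¹ * (n⁻¹ * δ * n))) := by
  by_cases hδ1 : δ = 1
  · rw [hδ1]; simp only [inv_one, mul_one, inv_mul_cancel, rc_one]; exact hA
  obtain ⟨a, ha, -, e⟩ := r1_ex (r1_symm hAD) (D.inv_mem hδ) (inv_ne_one.2 hδ1)
  have h1 := h.rc (n⁻¹ * a)
  rw [rc_rc D n, mul_inv_cancel_left, ← (Commute.inv_right (hn a ha : Commute a n)).eq, ← rc_rc, e] at h1
  have h2 := h1.symm.rc (δ * n)
  rw [rc_rc, inv_mul_cancel_left, rc_of_comm hn, rc_rc, rc_rc] at h2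
  convert h2 using 2; group

theorem tri_cross (hA : Cm A A) (hD : Cm D D) (hAD : R1 A D) (hCD : R1 C D) (hAC : Cm A C) {n δ : G}
    (hn : n ∈ A ⊔ C) (hn1 : n ≠ 1) (h : Cm D (D ^~ n)) (hδ : δ ∈ D) :
    Cm (A ^~ (δ⁻¹ * (n⁻¹ * δ * n))) C := by
  obtain ⟨m, hm, hmA⟩ := tri_m hA hAD hCD hAC
  have h' : Cm D (D ^~ n⁻¹) := by
    have := h.rc n⁻¹
    rw [rc_rc_inv] at this; exact this.symm
  obtain ⟨a, ha, e⟩ := (tri_form hD hAD hCD hAC hm hmA (inv_mem hn)).1 h'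
  have ha1 : a ≠ 1 := by
    rintro rfl
    apply hn1; rw [← inv_eq_one, e]; group
  obtain ⟨d, hd, -, e1⟩ := r1_ex hAD ha ha1
  have k := tri_mu hA hAC hm hmA ha hd e1 e rfl
  have hnA : ∀ x ∈ A, x * n = n * x := fun x hx => (hA.sup_right hAC) x hx n hn
  have hAμ := rc_eq_of_comm_mul k
  rw [hmA] at hAμ
  have hr : R1 (D ^~ n) A := by
    have := r1_rc (r1_symm hAD) n
    rwa [rc_of_comm hnA] at this
  rw [← hAμ]
  refine tri_line hD (hD.rc n) hA (r1_symm hAD) hr h (Subgroup.mul_mem_sup (D.inv_mem hδ) (conj_mem_rc hδ n))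
    ?_ (tri_comm hA hAD hnA h hδ) (hAμ ▸ hAC)
  rw [inv_inv]
  exact mul_mem (Subgroup.mem_sup_right (conj_mem_rc hd n)) (Subgroup.mem_sup_left (D.inv_mem hd))

theorem tri_cube (hA : Cm A A) (hC : Cm C C) (hD : Cm D D) (hAD : R1 A D) (hCD : R1 C D) (hAC : Cm A C)
    {K : Subgroup G} {n₁ n₂ n₃ : G} (h1 : n₁ ∈ A ⊔ C) (h2 : n₂ ∈ A ⊔ C) (h3 : n₃ ∈ A ⊔ C) (hn1 : n₁ ≠ 1)
    (c1 : Cm D (D ^~ n₁))
    (k1 : D ^~ n₁ ≤ K) (k2 : D ^~ n₂ ≤ K) (k3 : D ^~ n₃ ≤ K) (k12 : D ^~ (n₁ * n₂) ≤ K)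
    (k13 : D ^~ (n₁ * n₃) ≤ K) (k23 : D ^~ (n₂ * n₃) ≤ K) (k123 : D ^~ (n₁ * n₂ * n₃) ≤ K) : D ≤ K := by
  intro δ hδ
  have cAC : Cm (A ⊔ C) (A ⊔ C) := (hA.sup_left hAC.symm).sup_right (hAC.sup_left hC)
  set m' := δ⁻¹ * (n₁⁻¹ * δ * n₁) with hm'
  have q1 : Cm ((A ⊔ C) ^~ m') (A ⊔ C) := by
    rw [rc_sup]
    refine (Cm.sup_left ?_ ?_).sup_right (Cm.sup_left ?_ ?_)
    · exact (tri_comm hA hAD (fun x hx => cAC x (Subgroup.mem_sup_left hx) _ h1) c1 hδ).symm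
    · exact tri_cross hC hD hCD hAD hAC.symm (by rwa [sup_comm]) hn1 c1 hδ
    · exact tri_cross hA hD hAD hCD hAC h1 hn1 c1 hδ
    · exact (tri_comm hC hCD (fun x hx => cAC x (Subgroup.mem_sup_right hx) _ h1) c1 hδ).symm
  have q2 : Commute (m'⁻¹ * n₂⁻¹ * m' * n₂) n₃ :=
    Commute.mul_left (q1 _ (conj_mem_rc (inv_mem h2) m') _ h3) (cAC _ h2 _ h3)
  have f := fun (n : G) (k : D ^~ n ≤ K) => k (conj_mem_rc hδ n)
  have := K.mul_mem (K.mul_mem (K.mul_mem (f _ k1) (K.mul_mem (K.mul_mem (K.mul_mem (K.inv_mem (f _ k13)) (f _ k3))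
    (K.inv_mem (f _ k23))) (f _ k123))) (K.inv_mem (f _ k12))) (f _ k2)
  convert this using 1
  have e : (n₁ * n₃)⁻¹ * δ * (n₁ * n₃) = n₃⁻¹ * (n₁⁻¹ * δ * n₁) * n₃ := by group
  have q3 : n₃⁻¹ * (m'⁻¹ * n₂⁻¹ * m' * n₂) * n₃ = m'⁻¹ * n₂⁻¹ * m' * n₂ := by
    rw [mul_assoc, q2.eq]; group
  calc δ = (n₁⁻¹ * δ * n₁) * (m'⁻¹ * n₂⁻¹ * m' * n₂) * ((n₁ * n₂)⁻¹ * δ * (n₁ * n₂))⁻¹ * (n₂⁻¹ * δ * n₂) := by
        rw [hm']; group
    _ = _ := by rw [← q3, hm']; group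

end Cfsg.Agent.H90
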